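import Mathlib

/-!
# Large subgroups of a group like `PSU₃(5)`

A simple group of order `126000` acting transitively on `126` points, with a Sylow `5`-subgroup fixing a point and
regular on the others, root elements at the points, and an element of order `8` normalizing no subgroup of order `5`
of the Sylow subgroup other than the centre.  Every subgroup of order greater than `2520` is the whole group.
-/

set_option autoImplicit false
set_option linter.unusedVariables false
set_option linter.style.longLine false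
set_option linter.unusedSectionVars false
set_option linter.style.haveILetI false

namespace Cfsg.Agent.Lib.U35.Abs

open Subgroup MulAction

variable {Γ α : Type*} [Group Γ] [Finite Γ] [MulAction Γ α] [Finite α]

/-- The hypotheses. -/
structure Hyp (z s : Γ) (P5 : Subgroup Γ) (o x0 : α) (zt : α → Equiv.Perm α) : Prop where
  simple : IsSimpleGroup Γ
  card : Nat.card Γ = 126000
  cardα : Nat.card α = 126
  trans : ∀ a : α, ∃ g : Γ, g • o = a
  z1 : z ≠ 1
  z5 : z ^ 5 = 1
  nz : ∀ n : Γ, n • o = o → ∃ k : ℕ, n * z * n⁻¹ = z ^ k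
  rel : ∀ g : Γ, ∃ k : ℕ, ∀ w : α, zt (g • o) w = (g * z * g⁻¹) ^ k • w
  card5 : Nat.card P5 = 125
  fix5 : ∀ p ∈ P5, p • o = o
  zmem : z ∈ P5
  zcen : ∀ p ∈ P5, p * z = z * p
  noncomm : ∃ a ∈ P5, ∃ b ∈ P5, a * b ≠ b * a
  x0ne : x0 ≠ o
  reach : ∀ x, x ≠ o → ∃ p ∈ P5, p • x = x0
  closure : ∀ O : Set α, o ∈ O → x0 ∈ O → ∀ y0 ∈ O, y0 ≠ o → (∀ i : ℕ, y0 ≠ z ^ i • x0) →
    (∀ y ∈ O, ∀ w ∈ O, zt y w ∈ O) → O = Set.univ
  sfix : s • o = o
  sord : orderOf s = 8
  scheck : ∀ y ∈ P5, y ∉ zpowers z → ∀ k : ℕ, s * y * s⁻¹ ≠ y ^ k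

namespace Hyp

variable {z s : Γ} {P5 : Subgroup Γ} {o x0 : α} {zt : α → Equiv.Perm α}

/-- The order of the root element. -/
theorem orderOf_z (h : Hyp z s P5 o x0 zt) : orderOf z = 5 :=
  haveI : Fact (Nat.Prime 5) := ⟨by norm_num⟩
  orderOf_eq_prime h.z5 h.z1

theorem card_zpowers_z (h : Hyp z s P5 o x0 zt) : Nat.card (zpowers z) = 5 := by
  rw [Nat.card_zpowers, h.orderOf_z]

/-- The stabilizer of the point. -/
theorem card_stab (h : Hyp z s P5 o x0 zt) : Nat.card (stabilizer Γ o) = 1000 := by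
  have h1 := Subgroup.card_mul_index (stabilizer Γ o)
  rw [MulAction.index_stabilizer] at h1
  have h2 : orbit Γ o = Set.univ := by
    ext a
    simp only [Set.mem_univ, iff_true]
    obtain ⟨g, hg⟩ := h.trans a
    exact ⟨g, hg⟩
  rw [h2, Set.ncard_univ, h.cardα, h.card] at h1
  omega

/-- The Sylow subgroup is regular on the other points. -/
theorem reg (h : Hyp z s P5 o x0 zt) {p : Γ} (hp : p ∈ P5) (hpx : p • x0 = x0) : p = 1 := by
  let K := stabilizer (↥P5) x0
  have h1 := Subgroup.card_mul_index K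
  rw [MulAction.index_stabilizer, h.card5] at h1
  have h2 : ({o}ᶜ : Set α) ⊆ orbit (↥P5) x0 := by
    intro x hx
    obtain ⟨q, hq, hqx⟩ := h.reach x hx
    refine ⟨⟨q, hq⟩⁻¹, ?_⟩
    show (q⁻¹ : Γ) • x0 = x
    rw [← hqx, inv_smul_smul]
  have h3 : Set.ncard ({o}ᶜ : Set α) = 125 := by
    have := Set.ncard_add_ncard_compl ({o} : Set α)
    rw [Set.ncard_singleton, h.cardα] at this
    omega
  have h4 : 125 ≤ Set.ncard (orbit (↥P5) x0) := by
    rw [← h3]
    exact Set.ncard_le_ncard h2 (Set.toFinite _)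
  have h5 : Nat.card K = 1 := by
    have h6 : 0 < Nat.card K := Nat.card_pos
    have h7 : Nat.card K * 125 ≤ 125 := by
      calc Nat.card K * 125 ≤ Nat.card K * Set.ncard (orbit (↥P5) x0) := Nat.mul_le_mul_left _ h4
        _ = 125 := h1
    omega
  have h8 : (⟨p, hp⟩ : ↥P5) ∈ K := hpx
  have h9 : K = ⊥ := Subgroup.eq_bot_of_card_eq K h5
  rw [h9, Subgroup.mem_bot] at h8
  exact congrArg Subtype.val h8

/-- The factorization of the order at `5`. -/
theorem factorization_five (h : Hyp z s P5 o x0 zt) : (Nat.card Γ).factorization 5 = 3 := by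
  rw [h.card]
  have e : (126000 : ℕ) = 5 ^ 3 * 1008 := by norm_num
  rw [e, Nat.factorization_mul (by norm_num) (by norm_num), Nat.Prime.factorization_pow (by norm_num)]
  have h1 : (1008 : ℕ).factorization 5 = 0 := Nat.factorization_eq_zero_of_not_dvd (by norm_num)
  simp [h1]

/-- Conjugating a group of order `5` power into the Sylow subgroup. -/
theorem exists_conj_le (h : Hyp z s P5 o x0 zt) (R : Subgroup Γ) (hR : IsPGroup 5 R) :
    ∃ g : Γ, ∀ r ∈ R, g * r * g⁻¹ ∈ P5 := by
  haveI : Fact (Nat.Prime 5) := ⟨by norm_num⟩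
  obtain ⟨T, hT⟩ := hR.exists_le_sylow
  let S : Sylow 5 Γ := Sylow.ofCard P5 (by rw [h.card5, h.factorization_five]; norm_num)
  obtain ⟨g, hg⟩ := MulAction.exists_smul_eq Γ T S
  refine ⟨g, fun r hr => ?_⟩
  have h1 : (S : Subgroup Γ) = P5 := rfl
  rw [← h1, ← hg, Sylow.coe_subgroup_smul]
  exact Subgroup.smul_mem_pointwise_smul r (MulAut.conj g) (T : Subgroup Γ) (hT hr)

omit [Finite α] in
/-- A subgroup whose conjugate is everything is everything. -/
theorem eq_top_of_map_conj {H : Subgroup Γ} {g : Γ} (h : H.map (MulAut.conj g).toMonoidHom = ⊤) : H = ⊤ := by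
  rw [eq_top_iff]
  intro x _
  have h1 : g * x * g⁻¹ ∈ H.map (MulAut.conj g).toMonoidHom := by
    rw [h]
    trivial
  obtain ⟨y, hy, hyx⟩ := h1
  have : y = x := by
    have h2 : g * y * g⁻¹ = g * x * g⁻¹ := hyx
    simpa using h2
  rwa [← this]

omit [Finite α] in
theorem conj_mem_map {H : Subgroup Γ} (g : Γ) {x : Γ} (hx : x ∈ H) :
    g * x * g⁻¹ ∈ H.map (MulAut.conj g).toMonoidHom :=
  ⟨x, hx, rfl⟩

omit [Finite α] in
theorem card_map_conj (H : Subgroup Γ) (g : Γ) :
    Nat.card (H.map (MulAut.conj g).toMonoidHom) = Nat.card H :=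
  Nat.card_congr ((MulAut.conj g).subgroupMap H).symm.toEquiv

/-- A group containing `z`, an element of the Sylow subgroup outside `⟨z⟩`, and moving `o` to `x0`, is everything. -/
theorem eq_top_aux1 (h : Hyp z s P5 o x0 zt) (H : Subgroup Γ) (hz : z ∈ H) {q : Γ} (hq : q ∈ H) (hq5 : q ∈ P5)
    (hqz : q ∉ zpowers z) {u0 : Γ} (hu0 : u0 ∈ H) (hu0o : u0 • o = x0) : H = ⊤ := by
  have hO := h.closure {a | ∃ u ∈ H, u • o = a} ⟨1, H.one_mem, one_smul _ _⟩ ⟨u0, hu0, hu0o⟩ (q • x0)
    ⟨q * u0, H.mul_mem hq hu0, by rw [mul_smul, hu0o]⟩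
    (by
      intro hh
      apply h.x0ne
      have h1 := h.fix5 q hq5
      have h2 : q • x0 = q • o := by rw [hh, h1]
      exact smul_left_cancel q h2)
    (by
      intro i hi
      apply hqz
      have h1 : ((z ^ i)⁻¹ * q) • x0 = x0 := by
        rw [mul_smul, hi, inv_smul_smul]
      have h2 := h.reg (P5.mul_mem (P5.inv_mem (P5.pow_mem h.zmem i)) hq5) h1
      have h3 : q = z ^ i := (inv_mul_eq_one.1 h2).symm
      rw [h3]
      exact npow_mem_zpowers z i)
    (by
      rintro y ⟨u, hu, rfl⟩ w ⟨v, hv, rfl⟩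
      obtain ⟨k, hk⟩ := h.rel u
      rw [hk]
      refine ⟨(u * z * u⁻¹) ^ k * v, H.mul_mem (H.pow_mem (H.mul_mem (H.mul_mem hu hz) (H.inv_mem hu)) k) hv, ?_⟩
      rw [mul_smul])
  -- every conjugate of `z` lies in `H`
  have hconj : ∀ g : Γ, g * z * g⁻¹ ∈ H := by
    intro g
    have h1 : g • o ∈ {a | ∃ u ∈ H, u • o = a} := by
      rw [hO]
      trivial
    obtain ⟨u, hu, hug⟩ := h1
    have h2 : (u⁻¹ * g) • o = o := by
      rw [mul_smul, ← hug, inv_smul_smul]
    obtain ⟨k, hk⟩ := h.nz _ h2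
    have h3 : g * z * g⁻¹ = u * z ^ k * u⁻¹ := by
      rw [← hk]
      group
    have h4 : u * z ^ k * u⁻¹ = (u * z * u⁻¹) ^ k := by
      rw [conj_pow]
    rw [h3, h4]
    exact H.pow_mem (H.mul_mem (H.mul_mem hu hz) (H.inv_mem hu)) k
  have hs := h.simple
  have hL : (normalClosure ({z} : Set Γ)) ≤ H := by
    apply Subgroup.closure_le _ |>.2
    intro x hx
    obtain ⟨a, ha, hax⟩ := Group.mem_conjugatesOfSet_iff.1 hx
    rw [Set.mem_singleton_iff] at ha
    subst ha
    obtain ⟨g, rfl⟩ := isConj_iff.1 hax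
    exact hconj g
  have hL2 : normalClosure ({z} : Set Γ) = ⊤ := by
    rcases IsSimpleGroup.eq_bot_or_eq_top_of_normal (normalClosure ({z} : Set Γ)) inferInstance with h5 | h5
    · exfalso
      have h6 : z ∈ normalClosure ({z} : Set Γ) := Subgroup.subset_normalClosure (Set.mem_singleton z)
      rw [h5, Subgroup.mem_bot] at h6
      exact h.z1 h6
    · exact h5
  rw [eq_top_iff, ← hL2]
  exact hL

/-- The same, with any point moved. -/
theorem eq_top_aux2 (h : Hyp z s P5 o x0 zt) (H : Subgroup Γ) (hz : z ∈ H) {q : Γ} (hq : q ∈ H) (hq5 : q ∈ P5)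
    (hqz : q ∉ zpowers z) {u0 : Γ} (hu0 : u0 ∈ H) (hu0o : u0 • o ≠ o) : H = ⊤ := by
  obtain ⟨p, hp, hpx⟩ := h.reach _ hu0o
  apply eq_top_of_map_conj (g := p)
  apply h.eq_top_aux1 (q := p * q * p⁻¹) (u0 := p * u0 * p⁻¹)
  · have h1 := conj_mem_map p hz (H := H)
    have h2 : p * z * p⁻¹ = z := by
      rw [h.zcen p hp]
      group
    rwa [h2] at h1
  · exact conj_mem_map p hq
  · exact P5.mul_mem (P5.mul_mem hp hq5) (P5.inv_mem hp)
  · intro hh
    apply hqz
    obtain ⟨i, hi⟩ := Subgroup.mem_zpowers_iff.1 hh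
    have h3 : ∀ j : ℤ, p⁻¹ * z ^ j * p = z ^ j := by
      intro j
      have h4 : Commute p (z ^ j) := (show Commute p z from h.zcen p hp).zpow_right j
      have h5 := h4.eq
      calc p⁻¹ * z ^ j * p = p⁻¹ * (z ^ j * p) := by group
        _ = p⁻¹ * (p * z ^ j) := by rw [h5]
        _ = z ^ j := by group
    have h6 : q = z ^ i := by
      have h7 : q = p⁻¹ * (p * q * p⁻¹) * p := by group
      rw [h7, ← hi, h3]
    rw [h6]
    exact zpow_mem_zpowers z i
  · exact conj_mem_map p hu0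
  · have h1 := h.fix5 p hp
    have h2 : p⁻¹ • o = o := by
      conv_lhs => rw [← h1]
      rw [inv_smul_smul]
    rw [mul_smul, mul_smul, h2, hpx]

omit [Finite Γ] [Finite α] in
/-- Commuting commutative subgroups generate a commutative subgroup. -/
theorem sup_comm {A B : Subgroup Γ} (hA : ∀ a ∈ A, ∀ b ∈ A, a * b = b * a) (hB : ∀ a ∈ B, ∀ b ∈ B, a * b = b * a)
    (hAB : ∀ a ∈ A, ∀ b ∈ B, a * b = b * a) : ∀ x ∈ A ⊔ B, ∀ y ∈ A ⊔ B, x * y = y * x := by
  have h1 : ∀ x ∈ A, A ⊔ B ≤ centralizer {x} := by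
    intro x hx
    refine sup_le ?_ ?_ <;> intro y hy <;> rw [Subgroup.mem_centralizer_singleton_iff]
    · exact hA y hy x hx
    · exact (hAB x hx y hy).symm
  have h2 : ∀ x ∈ B, A ⊔ B ≤ centralizer {x} := by
    intro x hx
    refine sup_le ?_ ?_ <;> intro y hy <;> rw [Subgroup.mem_centralizer_singleton_iff]
    · exact hAB y hy x hx
    · exact hB y hy x hx
  intro x hx y hy
  have h3 : A ⊔ B ≤ centralizer {y} := by
    refine sup_le ?_ ?_ <;> intro t ht <;> rw [Subgroup.mem_centralizer_singleton_iff]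
    · have := h1 t ht hy
      rw [Subgroup.mem_centralizer_singleton_iff] at this
      exact this.symm
    · have := h2 t ht hy
      rw [Subgroup.mem_centralizer_singleton_iff] at this
      exact this.symm
  have := h3 hx
  rw [Subgroup.mem_centralizer_singleton_iff] at this
  exact this

/-- **The subgroups of order divisible by 25.** -/
theorem eq_top_of_dvd (h : Hyp z s P5 o x0 zt) (H : Subgroup Γ) (h25 : 25 ∣ Nat.card H)
    (hbig : 1000 < Nat.card H) : H = ⊤ := by
  haveI : Fact (Nat.Prime 5) := ⟨by norm_num⟩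
  obtain ⟨K, hK⟩ := Sylow.exists_subgroup_card_pow_prime (G := ↥H) 5 (n := 2) (by simpa using h25)
  let R : Subgroup Γ := K.map H.subtype
  have hRc : Nat.card R = 25 := by
    have : Nat.card R = Nat.card K :=
      Nat.card_congr (Subgroup.equivMapOfInjective K H.subtype H.subtype_injective).symm.toEquiv
    rw [this, hK]
    norm_num
  have hRH : R ≤ H := by
    rintro _ ⟨x, _, rfl⟩
    exact x.2
  obtain ⟨g, hg⟩ := h.exists_conj_le R (IsPGroup.of_card (n := 2) (by rw [hRc]; norm_num))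
  apply eq_top_of_map_conj (g := g)
  set H1 := H.map (MulAut.conj g).toMonoidHom with hH1
  set R1 := R.map (MulAut.conj g).toMonoidHom with hR1
  have hR1c : Nat.card R1 = 25 := by rw [hR1, card_map_conj, hRc]
  have hR1P : R1 ≤ P5 := by
    rintro _ ⟨r, hr, rfl⟩
    exact hg r hr
  have hR1H : R1 ≤ H1 := Subgroup.map_mono hRH
  -- `R1` is abelian of order 25, `z` is central in `P5`, `P5` is not abelian: `z ∈ R1`
  have hR1comm : ∀ a ∈ R1, ∀ b ∈ R1, a * b = b * a := by
    have hc : IsMulCommutative R1 := IsPGroup.isMulCommutative_of_card_eq_prime_sq (p := 5) (by rw [hR1c]; norm_num)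
    intro a ha b hb
    exact congrArg Subtype.val (hc.is_comm.comm (⟨a, ha⟩ : R1) ⟨b, hb⟩)
  have hzR : z ∈ R1 := by
    by_contra hzn
    let J := R1 ⊔ zpowers z
    have hJP : J ≤ P5 := sup_le hR1P (by
      rw [zpowers_le]
      exact h.zmem)
    have hJ1 : R1 < J := by
      refine lt_of_le_of_ne le_sup_left ?_
      intro e
      apply hzn
      rw [e]
      exact (le_sup_right : zpowers z ≤ J) (mem_zpowers z)
    have hJc : Nat.card J = 125 := by
      have h1 : Nat.card J ∣ 5 ^ 3 := by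
        have := Subgroup.card_dvd_of_le hJP
        rwa [h.card5] at this
      have h3 : 25 < Nat.card J := by
        by_contra hn
        exact hJ1.ne (Subgroup.eq_of_le_of_card_ge hJ1.le (by rw [hR1c]; omega))
      obtain ⟨k, hk, hk2⟩ := (Nat.dvd_prime_pow (by norm_num)).1 h1
      interval_cases k <;> simp only [hk2] at h3 ⊢ <;> omega
    have hJe : J = P5 := Subgroup.eq_of_le_of_card_ge hJP (by rw [hJc, h.card5])
    obtain ⟨a, ha, b, hb, hab⟩ := h.noncomm
    apply hab
    rw [← hJe] at ha hb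
    refine sup_comm hR1comm ?_ ?_ a ha b hb
    · intro x hx y hy
      obtain ⟨i, rfl⟩ := Subgroup.mem_zpowers_iff.1 hx
      obtain ⟨j, rfl⟩ := Subgroup.mem_zpowers_iff.1 hy
      exact ((Commute.refl z).zpow_zpow i j).eq
    · intro x hx y hy
      obtain ⟨i, rfl⟩ := Subgroup.mem_zpowers_iff.1 hy
      exact ((show Commute x z from h.zcen x (hR1P hx)).zpow_right i).eq
  -- an element outside `⟨z⟩`
  have hq : ∃ q ∈ R1, q ∉ zpowers z := by
    by_contra hn
    push Not at hn
    have h1 : Nat.card R1 ≤ Nat.card (zpowers z) := Subgroup.card_le_of_le hn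
    rw [hR1c, h.card_zpowers_z] at h1
    omega
  obtain ⟨q, hqR, hqz⟩ := hq
  -- moving the point
  have hu : ∃ u ∈ H1, u • o ≠ o := by
    by_contra hn
    push Not at hn
    have h1 : H1 ≤ stabilizer Γ o := fun u hu => hn u hu
    have h2 := Subgroup.card_le_of_le h1
    rw [hH1, card_map_conj, h.card_stab] at h2
    omega
  obtain ⟨u, hu, huo⟩ := hu
  exact h.eq_top_aux2 H1 (hR1H hzR) (hR1H hqR) (hR1P hqR) hqz hu huo

/-- **There is no subgroup of order 5040.** -/
theorem not_5040 (h : Hyp z s P5 o x0 zt) (H : Subgroup Γ) (hH : Nat.card H = 5040) : False := by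
  haveI : Fact (Nat.Prime 5) := ⟨by norm_num⟩
  haveI : Fact (Nat.Prime 2) := ⟨by norm_num⟩
  have hs := h.simple
  have hidx : H.index = 25 := by
    have := Subgroup.card_mul_index H
    rw [hH, h.card] at this
    omega
  let a0 : Γ ⧸ H := QuotientGroup.mk 1
  have hmem : ∀ g : Γ, g • a0 = a0 ↔ g ∈ H := by
    intro g
    have : g • a0 = QuotientGroup.mk (g * 1) := rfl
    rw [this, mul_one]
    show (QuotientGroup.mk g : Γ ⧸ H) = QuotientGroup.mk 1 ↔ _
    rw [QuotientGroup.eq, mul_one, inv_mem_iff]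
  have hsmul : ∀ g : Γ, g • a0 = QuotientGroup.mk g := by
    intro g
    have : g • a0 = QuotientGroup.mk (g * 1) := rfl
    rw [this, mul_one]
  have hcardQ : Set.ncard (Set.univ : Set (Γ ⧸ H)) = 25 := by
    rw [Set.ncard_univ]
    exact hidx
  -- the Sylow subgroup is transitive on the cosets
  let K := stabilizer (↥P5) a0
  have hKmem : ∀ p : ↥P5, p ∈ K ↔ p.1 ∈ H := fun p => hmem p.1
  have hK1 := Subgroup.card_mul_index K
  rw [MulAction.index_stabilizer, h.card5] at hK1
  have hKd1 : Nat.card K ∣ 125 := ⟨_, hK1.symm⟩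
  have hKd2 : Nat.card K ∣ 5040 := by
    rw [← hH]
    have hle : K.map P5.subtype ≤ H := by
      rintro _ ⟨p, hp, rfl⟩
      exact (hKmem p).1 hp
    have := Subgroup.card_dvd_of_le hle
    rwa [show Nat.card (K.map P5.subtype) = Nat.card K from
      Nat.card_congr (Subgroup.equivMapOfInjective K P5.subtype P5.subtype_injective).symm.toEquiv] at this
  have hKle : Nat.card K ≤ 5 := by
    have h1 : Nat.card K ∣ Nat.gcd 125 5040 := Nat.dvd_gcd hKd1 hKd2
    have h2 : Nat.gcd 125 5040 = 5 := by norm_num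
    rw [h2] at h1
    exact Nat.le_of_dvd (by norm_num) h1
  have horb : orbit (↥P5) a0 = Set.univ := by
    apply Set.eq_of_subset_of_ncard_le (Set.subset_univ _) _ (Set.toFinite _)
    rw [hcardQ]
    by_contra hn
    have hlt : Set.ncard (orbit (↥P5) a0) ≤ 24 := by omega
    have := Nat.mul_le_mul hKle hlt
    omega
  have hKc : Nat.card K = 5 := by
    rw [horb, hcardQ] at hK1
    omega
  have hF1 : ∀ g : Γ, ∃ p ∈ P5, ∃ k ∈ H, g = p * k := by
    intro g
    have h1 : (QuotientGroup.mk g : Γ ⧸ H) ∈ orbit (↥P5) a0 := by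
      rw [horb]
      trivial
    obtain ⟨p, hp⟩ := h1
    have h2 : (QuotientGroup.mk (p.1 : Γ) : Γ ⧸ H) = QuotientGroup.mk g := by
      rw [← hsmul]
      exact hp
    rw [QuotientGroup.eq] at h2
    exact ⟨p.1, p.2, _, h2, by group⟩
  -- the root element is not in `H`
  have hzH : z ∉ H := by
    intro hz
    have hc : z ∈ H.normalCore := by
      show ∀ b : Γ, b * z * b⁻¹ ∈ H
      intro b
      obtain ⟨p, hp, k, hk, hb⟩ := hF1 b⁻¹
      have e1 : b = k⁻¹ * p⁻¹ := by
        have : b = (b⁻¹)⁻¹ := by group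
        rw [this, hb]
        group
      have e2 : p⁻¹ * z * p = z := by
        have := h.zcen p hp
        calc p⁻¹ * z * p = p⁻¹ * (z * p) := by group
          _ = p⁻¹ * (p * z) := by rw [this]
          _ = z := by group
      have e3 : b * z * b⁻¹ = k⁻¹ * z * k := by
        rw [e1]
        calc k⁻¹ * p⁻¹ * z * (k⁻¹ * p⁻¹)⁻¹ = k⁻¹ * (p⁻¹ * z * p) * k := by group
          _ = k⁻¹ * z * k := by rw [e2]
      rw [e3]
      exact H.mul_mem (H.mul_mem (H.inv_mem hk) hz) hk
    rcases IsSimpleGroup.eq_bot_or_eq_top_of_normal H.normalCore inferInstance with h5 | h5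
    · rw [h5, Subgroup.mem_bot] at hc
      exact h.z1 hc
    · have h6 : H = ⊤ := by
        rw [eq_top_iff, ← h5]
        exact H.normalCore_le
      rw [h6, Subgroup.card_top, h.card] at hH
      omega
  -- the intersection with the Sylow subgroup
  let R : Subgroup Γ := H ⊓ P5
  have hRK : R = K.map P5.subtype := by
    ext x
    constructor
    · rintro ⟨h1, h2⟩
      exact ⟨⟨x, h2⟩, (hKmem _).2 h1, rfl⟩
    · rintro ⟨p, hp, rfl⟩
      exact ⟨(hKmem p).1 hp, p.2⟩
  have hRc : Nat.card R = 5 := by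
    rw [hRK, ← hKc]
    exact Nat.card_congr (Subgroup.equivMapOfInjective K P5.subtype P5.subtype_injective).symm.toEquiv
  have hy : ∃ y ∈ R, y ≠ 1 := by
    by_contra hn
    push Not at hn
    have : R = ⊥ := by
      rw [eq_bot_iff]
      intro y hy
      exact hn y hy
    rw [this, Subgroup.card_bot] at hRc
    omega
  obtain ⟨y, hyR, hy1⟩ := hy
  have hyo : orderOf y = 5 := by
    have h1 : orderOf y ∣ 5 := by
      have := Subgroup.orderOf_dvd_natCard R hyR
      rwa [hRc] at this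
    rcases (Nat.dvd_prime (by norm_num)).1 h1 with h2 | h2
    · exact absurd (orderOf_eq_one_iff.1 h2) hy1
    · exact h2
  have hRy : zpowers y = R := by
    apply Subgroup.eq_of_le_of_card_ge
    · rw [zpowers_le]
      exact hyR
    · rw [Nat.card_zpowers, hyo, hRc]
  -- the stabilizer of the point acts transitively on the cosets
  let N := stabilizer Γ o
  have hNc : Nat.card N = 1000 := h.card_stab
  have hP5N : P5 ≤ N := fun p hp => h.fix5 p hp
  let K2 := stabilizer (↥N) a0
  have hK2mem : ∀ n : ↥N, n ∈ K2 → n.1 ∈ H := fun n hn => (hmem n.1).1 hn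
  have hK21 := Subgroup.card_mul_index K2
  rw [MulAction.index_stabilizer, hNc] at hK21
  have horb2 : orbit (↥N) a0 = Set.univ := by
    apply Set.eq_univ_of_forall
    intro b
    have h1 : b ∈ orbit (↥P5) a0 := by
      rw [horb]
      trivial
    obtain ⟨p, hp⟩ := h1
    exact ⟨⟨p.1, hP5N p.2⟩, hp⟩
  rw [horb2, hcardQ] at hK21
  have hK2c : Nat.card K2 = 40 := by omega
  obtain ⟨T, hT⟩ := Sylow.exists_subgroup_card_pow_prime (G := ↥K2) 2 (n := 3) (by rw [hK2c]; norm_num)
  let T' : Subgroup ↥N := T.map K2.subtype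
  have hT'c : Nat.card T' = 8 := by
    have : Nat.card T' = Nat.card T :=
      Nat.card_congr (Subgroup.equivMapOfInjective T K2.subtype K2.subtype_injective).symm.toEquiv
    rw [this, hT]
    norm_num
  have hsN : s ∈ N := h.sfix
  let sN : ↥N := ⟨s, hsN⟩
  have hCc : Nat.card (zpowers sN) = 8 := by
    rw [Nat.card_zpowers, Subgroup.orderOf_mk, h.sord]
  have hfac2 : (Nat.card ↥N).factorization 2 = 3 := by
    rw [hNc]
    have e : (1000 : ℕ) = 2 ^ 3 * 125 := by norm_num
    rw [e, Nat.factorization_mul (by norm_num) (by norm_num), Nat.Prime.factorization_pow (by norm_num)]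
    have h1 : (125 : ℕ).factorization 2 = 0 := Nat.factorization_eq_zero_of_not_dvd (by norm_num)
    simp [h1]
  let S1 : Sylow 2 ↥N := Sylow.ofCard T' (by rw [hT'c, hfac2]; norm_num)
  let S2 : Sylow 2 ↥N := Sylow.ofCard (zpowers sN) (by rw [hCc, hfac2]; norm_num)
  obtain ⟨n, hn⟩ := MulAction.exists_smul_eq ↥N S2 S1
  have hs' : n * sN * n⁻¹ ∈ T' := by
    have e1 : (S1 : Subgroup ↥N) = T' := rfl
    rw [← e1, ← hn, Sylow.coe_subgroup_smul]
    exact Subgroup.smul_mem_pointwise_smul sN (MulAut.conj n) (S2 : Subgroup ↥N) (mem_zpowers sN)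
  have hs'H : (n * sN * n⁻¹).1 ∈ H := by
    obtain ⟨t, _, ht⟩ := hs'
    rw [← ht]
    exact hK2mem _ t.2
  -- the Sylow subgroup is normal in the stabilizer
  have hnormal : ∀ (m : ↥N) (p : Γ), p ∈ P5 → m.1 * p * m.1⁻¹ ∈ P5 := by
    let Q : Subgroup ↥N := P5.subgroupOf N
    have hQc : Nat.card Q = 125 := by
      rw [← h.card5]
      exact Nat.card_congr (Subgroup.subgroupOfEquivOfLe hP5N).toEquiv
    have hfac5 : (Nat.card ↥N).factorization 5 = 3 := by
      rw [hNc]
      have e : (1000 : ℕ) = 5 ^ 3 * 8 := by norm_num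
      rw [e, Nat.factorization_mul (by norm_num) (by norm_num), Nat.Prime.factorization_pow (by norm_num)]
      have h1 : (8 : ℕ).factorization 5 = 0 := Nat.factorization_eq_zero_of_not_dvd (by norm_num)
      simp [h1]
    let S5 : Sylow 5 ↥N := Sylow.ofCard Q (by rw [hQc, hfac5]; norm_num)
    have hc1 : Nat.card (Sylow 5 ↥N) ∣ (S5 : Subgroup ↥N).index := S5.card_dvd_index
    have hidx8 : (S5 : Subgroup ↥N).index = 8 := by
      have e1 : (S5 : Subgroup ↥N) = Q := rfl
      have := Subgroup.card_mul_index (S5 : Subgroup ↥N)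
      rw [e1, hQc, hNc] at this
      rw [e1]
      omega
    rw [hidx8] at hc1
    have hc2 := card_sylow_modEq_one 5 ↥N
    have hc3 : Nat.card (Sylow 5 ↥N) = 1 := by
      obtain ⟨k, hk, hk2⟩ := (Nat.dvd_prime_pow (show Nat.Prime 2 by norm_num)).1 (show Nat.card (Sylow 5 ↥N) ∣ 2 ^ 3 by simpa using hc1)
      rw [hk2] at hc2 ⊢
      interval_cases k
      · rfl
      · exact absurd hc2 (by decide)
      · exact absurd hc2 (by decide)
      · exact absurd hc2 (by decide)
    haveI : Subsingleton (Sylow 5 ↥N) := (Nat.card_eq_one_iff_unique.1 hc3).1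
    have hnm : (S5 : Subgroup ↥N).Normal := Sylow.normal_of_subsingleton S5
    intro m p hp
    have h1 : (⟨p, hP5N hp⟩ : ↥N) ∈ (S5 : Subgroup ↥N) := hp
    have h2 := hnm.conj_mem _ h1 m
    exact h2
  -- conclusion
  set m : Γ := n.1 with hm
  have hmN : m ∈ N := n.2
  have hs'e : (n * sN * n⁻¹).1 = m * s * m⁻¹ := rfl
  rw [hs'e] at hs'H
  have hs'N : m * s * m⁻¹ ∈ N := (n * sN * n⁻¹).2
  have hyH : y ∈ H := hyR.1
  have hyP : y ∈ P5 := hyR.2
  have h1 : (m * s * m⁻¹) * y * (m * s * m⁻¹)⁻¹ ∈ R :=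
    ⟨H.mul_mem (H.mul_mem hs'H hyH) (H.inv_mem hs'H), hnormal ⟨_, hs'N⟩ y hyP⟩
  rw [← hRy] at h1
  obtain ⟨k, hk⟩ := (mem_powers_iff_mem_zpowers).2 h1
  have hy'P : m⁻¹ * y * m ∈ P5 := by
    have := hnormal n⁻¹ y hyP
    simpa [hm] using this
  have hy'z : m⁻¹ * y * m ∉ zpowers z := by
    intro hmz
    obtain ⟨i, hi⟩ := Subgroup.mem_zpowers_iff.1 hmz
    obtain ⟨j, hj⟩ := h.nz m hmN
    have e1 : y = (z ^ j) ^ i := by
      rw [← hj, conj_zpow, hi]
      group
    have h3 : y ∈ zpowers z := by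
      rw [e1]
      exact Subgroup.zpow_mem _ (Subgroup.pow_mem _ (mem_zpowers z) j) i
    have h4 : zpowers y = zpowers z := by
      apply Subgroup.eq_of_le_of_card_ge
      · rw [zpowers_le]
        exact h3
      · rw [h.card_zpowers_z, Nat.card_zpowers, hyo]
    have h5 : z ∈ zpowers y := by
      rw [h4]
      exact mem_zpowers z
    rw [hRy] at h5
    exact hzH h5.1
  apply h.scheck _ hy'P hy'z k
  have e2 : s * (m⁻¹ * y * m) * s⁻¹ = m⁻¹ * ((m * s * m⁻¹) * y * (m * s * m⁻¹)⁻¹) * m := by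
    group
  have hk' : y ^ k = (m * s * m⁻¹) * y * (m * s * m⁻¹)⁻¹ := hk
  rw [e2, ← hk']
  calc m⁻¹ * y ^ k * m = m⁻¹ * y ^ k * (m⁻¹)⁻¹ := by group
    _ = (m⁻¹ * y * (m⁻¹)⁻¹) ^ k := (conj_pow).symm
    _ = (m⁻¹ * y * m) ^ k := by rw [inv_inv]

/-- **Every subgroup of order greater than 2520 is the whole group.** -/
theorem eq_top_of_big (h : Hyp z s P5 o x0 zt) (H : Subgroup Γ) (hbig : 2520 < Nat.card H) : H = ⊤ := by
  by_cases h25 : 25 ∣ Nat.card H
  · exact h.eq_top_of_dvd H h25 (by omega)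
  · exfalso
    have h1 := Subgroup.card_mul_index H
    rw [h.card] at h1
    generalize hc : Nat.card H = c at *
    generalize hd : H.index = d at *
    have hd0 : d < 50 := by
      by_contra hn
      have := Nat.mul_le_mul hbig.le (not_lt.1 hn)
      have h3 : 2521 * 50 ≤ c * d := Nat.mul_le_mul hbig (not_lt.1 hn)
      omega
    have hd25 : d = 25 := by
      interval_cases d <;> omega
    subst hd25
    have : c = 5040 := by omega
    subst this
    exact h.not_5040 H hc

end Hyp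

end Cfsg.Agent.Lib.U35.Abs
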