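import Cfsg.Agent.Lib.U35.Checks

/-! # `PSU₃(5)` as a permutation group on the isotropic points -/

set_option autoImplicit false
set_option maxRecDepth 100000
set_option linter.unusedSectionVars false
set_option linter.unusedVariables false
set_option linter.style.longLine false
set_option linter.unnecessarySimpa false
set_option linter.style.haveILetI false

namespace Cfsg.Agent.Lib.U35.Bridge

open Cfsg Cfsg.Agent.Lib.Golay.Core Cfsg.Agent.Lib.U35.Data Cfsg.Agent.Lib.U35.Field Cfsg.Agent.Lib.U35.Checks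
open _root_.Cfsg.Agent.Lib.PermComp
open Cfsg.Agent.Lib.Classical.HermSimple Cfsg.Agent.Lib.Classical.HermBridge Cfsg.Agent.Lib.Classical.HermBasic
open Cfsg.Agent.Lib.Classical.HermElem
open scoped Matrix

/-- The identity numbering of the points. -/
abbrev e0 : Fin g_n ≃ Fin g_n := Equiv.refl _

/-- The permutation group. -/
abbrev Hp : Subgroup (Equiv.Perm (Fin g_n)) := Core.H g_w g_mask e0 g_T

theorem rep_of_valid {c : ℕ} (h : Simple.validB g_n g_w g_mask g_idc c = true) :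
    ∃ g, Core.Rep g_w g_mask e0 c g :=
  Simple.exists_rep_of_valid hid.1 hid.2 h

theorem rep_T : ∀ c ∈ g_T, ∃ g, Core.Rep g_w g_mask e0 c g := fun c hc =>
  rep_of_valid ((Core.allL_eq_true _ _).1 T_valid c hc)

theorem ap_lt {c : ℕ} (hc : ∃ g, Core.Rep g_w g_mask e0 c g) (a : ℕ) (ha : a < 126) : ap c a < 126 := by
  obtain ⟨g, hg⟩ := hc
  have h := hg ⟨a, ha⟩
  have h2 : (g ⟨a, ha⟩ : Fin g_n).1 < 126 := (g ⟨a, ha⟩).2
  have h3 : ap c a = (g ⟨a, ha⟩ : Fin g_n).1 := h
  omega

section Field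

variable {K : Type*} [Field K] [Fintype K] (hK : Fintype.card K = 25)

include hK

theorem five_zero : (5 : K) = 0 := by
  have h : Nat.card K • (1 : K) = 0 := card_nsmul_eq_zero'
  rw [Nat.card_eq_fintype_card, hK] at h
  have h2 : (5 : K) * 5 = 0 := by
    rw [← h]
    norm_num
  simpa using h2

theorem exists_w : ∃ w : K, w * w = 2 := by
  have h5 := five_zero hK
  have h2 : (2 : K) ≠ 0 := by
    intro h
    have : (1 : K) = 0 := by linear_combination h5 - 2 * h
    exact one_ne_zero this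
  have hc : ringChar K ≠ 2 := by
    intro h
    apply h2
    have := ringChar.Nat.cast_ringChar (R := K)
    rw [h] at this
    exact_mod_cast this
  have hs : IsSquare (2 : K) := by
    rw [FiniteField.isSquare_iff hc h2, hK]
    show (2 : K) ^ 12 = 1
    linear_combination (819 : K) * h5
  obtain ⟨w, hw⟩ := hs
  exact ⟨w, hw.symm⟩

omit hK

variable {w : K} (hw : w * w = 2) (h5 : (5 : K) = 0)

include hw h5

theorem code_zero {x : ℕ} (hx : x < 25) (h : φ w x = 0) : x = 0 :=
  φ_inj hw h5 hx (by norm_num) (by rw [h, φ_zero])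

omit hw in
theorem vec_ne (k : ℕ) (hk : k < 126) : toV w (pc k) ≠ 0 := by
  intro h
  have h1 := allUpTo_iff.mp pts_ok k hk
  have h2 : oneB (pc k) = true := by
    cases hh : oneB (pc k) with
    | true => rfl
    | false => rw [hh] at h1; simp at h1
  have h3 : ∀ a : Fin 3, φ w (vv (pc k) a.1) = 0 := fun a => congrFun h a
  have one_ne : φ w 1 ≠ 0 := by
    rw [φ_one h5]
    exact one_ne_zero
  unfold oneB at h2
  simp only [Bool.or_eq_true] at h2
  rcases h2 with (h2 | h2) | h2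
  · have := Nat.eq_of_beq_eq_true h2
    have h4 := h3 0
    simp only [Fin.isValue, Fin.val_zero] at h4
    rw [this] at h4
    exact one_ne h4
  · have := Nat.eq_of_beq_eq_true h2
    have h4 := h3 1
    simp only [Fin.isValue, Fin.val_one] at h4
    rw [this] at h4
    exact one_ne h4
  · have := Nat.eq_of_beq_eq_true h2
    have h4 := h3 2
    simp only [Fin.isValue, Fin.val_two] at h4
    rw [this] at h4
    exact one_ne h4

theorem vec_iso (k : ℕ) (hk : k < 126) : hermForm 3 K 5 (toV w (pc k)) (toV w (pc k)) = 0 := by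
  rw [herm_toV hw h5]
  have h1 := allUpTo_iff.mp pts_ok k hk
  have h2 : Nat.beq (hC (pc k) (pc k)) 0 = true := by
    cases hh : Nat.beq (hC (pc k) (pc k)) 0 with
    | true => rfl
    | false => rw [hh] at h1; simp at h1
  rw [Nat.eq_of_beq_eq_true h2, φ_zero]

theorem prop_unpack {a b c k : ℕ} (h : propB a b c k = true) :
    ∃ l, a = mulC l (vv (pc k) 0) ∧ b = mulC l (vv (pc k) 1) ∧ c = mulC l (vv (pc k) 2) := by
  unfold propB at h
  simp only [Bool.and_eq_true] at h
  exact ⟨_, Nat.eq_of_beq_eq_true h.1.1, Nat.eq_of_beq_eq_true h.1.2, Nat.eq_of_beq_eq_true h.2⟩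

/-- A vector and its coordinates, with `propB`. -/
theorem vec_of_prop {a b c k : ℕ} (h : propB a b c k = true) {v : Fin 3 → K}
    (h0 : v 0 = φ w a) (h1 : v 1 = φ w b) (h2 : v 2 = φ w c) : ∃ l : K, l • toV w (pc k) = v := by
  obtain ⟨l, ha, hb, hc⟩ := prop_unpack hw h5 h
  refine ⟨φ w l, ?_⟩
  funext i
  fin_cases i
  · show φ w l * φ w (vv (pc k) 0) = v 0
    rw [h0, ha, φ_mul hw h5]
  · show φ w l * φ w (vv (pc k) 1) = v 1
    rw [h1, hb, φ_mul hw h5]
  · show φ w l * φ w (vv (pc k) 2) = v 2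
    rw [h2, hc, φ_mul hw h5]

theorem minor_zero {U V : ℕ} {c : K} (i j : Fin 3) (h : toV w U = c • toV w V) : minorC U V i.1 j.1 = 0 := by
  apply code_zero hw h5 (addC_lt _ _)
  rw [φ_add hw h5, φ_neg hw h5, φ_mul hw h5, φ_mul hw h5]
  have hi : φ w (vv U i.1) = c * φ w (vv V i.1) := congrFun h i
  have hj : φ w (vv U j.1) = c * φ w (vv V j.1) := congrFun h j
  rw [hi, hj]
  ring

theorem minor_zero' {U V : ℕ} {c : K} (i j : Fin 3) (h : toV w V = c • toV w U) : minorC U V i.1 j.1 = 0 := by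
  apply code_zero hw h5 (addC_lt _ _)
  rw [φ_add hw h5, φ_neg hw h5, φ_mul hw h5, φ_mul hw h5]
  have hi : φ w (vv V i.1) = c * φ w (vv U i.1) := congrFun h i
  have hj : φ w (vv V j.1) = c * φ w (vv U j.1) := congrFun h j
  rw [hi, hj]
  ring

theorem np_lt {k l : ℕ} (hk : k < 126) (hl : l < k) : npB (pc k) (pc l) = true :=
  allUpTo_iff.mp (allUpTo_iff.mp pts_np k hk) l hl

theorem npB_false {U V : ℕ} (h01 : minorC U V 0 1 = 0) (h02 : minorC U V 0 2 = 0) (h12 : minorC U V 1 2 = 0) :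
    npB U V = false := by
  unfold npB
  rw [h01, h02, h12]
  rfl

end Field

section Points

variable {K : Type*} [Field K] [Fintype K] (hK : Fintype.card K = 5 ^ 2) {w : K}
  (hw : w * w = 2) (h5 : (5 : K) = 0)

/-- The point with a number. -/
noncomputable def ptF (k : Fin g_n) : isoPts (hform hK 3) :=
  pt (hform hK 3) (toV w (pc k.1)) (vec_ne h5 k.1 k.2) (vec_iso hw h5 k.1 k.2)

include hw h5

theorem ptF_inj : Function.Injective (ptF hK hw h5) := by
  intro k l h
  have h1 : Projectivization.mk K (toV w (pc k.1)) (vec_ne h5 k.1 k.2) =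
      Projectivization.mk K (toV w (pc l.1)) (vec_ne h5 l.1 l.2) := congrArg Subtype.val h
  obtain ⟨c, hc⟩ := (Projectivization.mk_eq_mk_iff' K _ _ _ _).1 h1
  apply Fin.ext
  rcases lt_trichotomy k.1 l.1 with hlt | heq | hlt
  · exfalso
    have h2 := np_lt (K := K) hw h5 l.2 hlt
    rw [npB_false (K := K) hw h5 (minor_zero' hw h5 (w := w) 0 1 hc.symm) (minor_zero' hw h5 (w := w) 0 2 hc.symm)
      (minor_zero' hw h5 (w := w) 1 2 hc.symm)] at h2
    exact Bool.false_ne_true h2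
  · exact heq
  · exfalso
    have h2 := np_lt (K := K) hw h5 k.2 hlt
    rw [npB_false (K := K) hw h5 (minor_zero hw h5 (w := w) 0 1 hc.symm) (minor_zero hw h5 (w := w) 0 2 hc.symm)
      (minor_zero hw h5 (w := w) 1 2 hc.symm)] at h2
    exact Bool.false_ne_true h2

theorem ptF_surj (hK' : Fintype.card K = 25) : Function.Surjective (ptF hK hw h5) := by
  intro x
  obtain ⟨v, hv0, hvv, rfl⟩ := exists_eq_pt (hform hK 3) x
  obtain ⟨a, ha, hav⟩ := φ_surj hw h5 hK' (v 0)
  obtain ⟨b, hb, hbv⟩ := φ_surj hw h5 hK' (v 1)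
  obtain ⟨c, hc, hcv⟩ := φ_surj hw h5 hK' (v 2)
  have h1 := allUpTo_iff.mp (allUpTo_iff.mp (allUpTo_iff.mp pts_all a ha) b hb) c hc
  have hT0 : hT a b c = 0 := by
    apply code_zero hw h5 (addC_lt _ _)
    simp only [φ_add hw h5, φ_mul hw h5, φ_frob hw h5]
    rw [hav, hbv, hcv]
    have : hermForm 3 K 5 v v = v 0 * v 0 ^ 5 + v 1 * v 1 ^ 5 + v 2 * v 2 ^ 5 := by
      unfold hermForm
      rw [Fin.sum_univ_three]
    rw [← this]
    exact hvv
  have hne : ¬ (a = 0 ∧ b = 0 ∧ c = 0) := by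
    rintro ⟨rfl, rfl, rfl⟩
    apply hv0
    funext i
    fin_cases i
    · show v 0 = 0
      rw [← hav, φ_zero]
    · show v 1 = 0
      rw [← hbv, φ_zero]
    · show v 2 = 0
      rw [← hcv, φ_zero]
  have h2 : (List.range 126).any (propB a b c) = true := by
    rw [hT0] at h1
    have h3 : (!Nat.beq 0 0) = false := rfl
    rw [h3, Bool.false_or] at h1
    cases h4 : (Nat.beq a 0 && Nat.beq b 0 && Nat.beq c 0) with
    | true =>
      exfalso
      simp only [Bool.and_eq_true] at h4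
      exact hne ⟨Nat.eq_of_beq_eq_true h4.1.1, Nat.eq_of_beq_eq_true h4.1.2, Nat.eq_of_beq_eq_true h4.2⟩
    | false =>
      rw [h4, Bool.false_or] at h1
      exact h1
  obtain ⟨k, hk, hp⟩ := List.any_eq_true.1 h2
  have hk' : k < 126 := List.mem_range.1 hk
  obtain ⟨l, hl⟩ := vec_of_prop hw h5 hp (v := v) hav.symm hbv.symm hcv.symm
  refine ⟨⟨k, hk'⟩, ?_⟩
  apply Subtype.ext
  show Projectivization.mk K (toV w (pc k)) (vec_ne h5 k hk') = Projectivization.mk K v hv0
  rw [Projectivization.mk_eq_mk_iff']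
  have hl0 : l ≠ 0 := by
    rintro rfl
    rw [zero_smul] at hl
    exact hv0 hl.symm
  exact ⟨l⁻¹, by rw [← hl, smul_smul, inv_mul_cancel₀ hl0, one_smul]⟩

/-- The numbering of the isotropic points. -/
noncomputable def Epts (hK' : Fintype.card K = 25) : Fin g_n ≃ isoPts (hform hK 3) :=
  Equiv.ofBijective (ptF hK hw h5) ⟨ptF_inj hK hw h5, ptF_surj hK hw h5 hK'⟩

omit hw h5 in
/-- `SU` acting on the points. -/
noncomputable def rho0 : SU 3 K 5 →* Equiv.Perm (isoPts (hform hK 3)) :=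
  (MulAction.toPermHom (suGroup (hermForm 3 K 5)) (isoPts (hform hK 3))).comp (suEquiv 3 5).toMonoidHom

omit hw h5 in
theorem rho0_center (z : SU 3 K 5) (hz : z ∈ Subgroup.center (SU 3 K 5)) : rho0 hK z = 1 := by
  have hz' : suEquiv 3 5 z ∈ Subgroup.center (suGroup (hermForm 3 K 5)) := by
    rw [Subgroup.mem_center_iff] at hz ⊢
    intro g
    obtain ⟨g', rfl⟩ := (suEquiv 3 5).surjective g
    rw [← map_mul, ← map_mul, hz g']
  obtain ⟨a, ha⟩ := scalar_of_mem_center (hform hK 3) (invol_frob hK) (by rw [Module.finrank_fin_fun]; norm_num) hz'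
  ext1 x
  obtain ⟨v, hv0, hvv, rfl⟩ := exists_eq_pt (hform hK 3) x
  show suEquiv 3 5 z • pt (hform hK 3) v hv0 hvv = _
  rw [su_smul_pt]
  apply Subtype.ext
  show Projectivization.mk K ((suEquiv 3 5 z).1 v) _ = Projectivization.mk K v hv0
  rw [Projectivization.mk_eq_mk_iff']
  exact ⟨a, (ha v).symm⟩

/-- The action on numbered points. -/
noncomputable def rho (hK' : Fintype.card K = 25) : PSU 3 K 5 →* Equiv.Perm (Fin g_n) :=
  ((Epts hK hw h5 hK').symm.permCongrHom).toMonoidHom.comp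
    (QuotientGroup.lift _ (rho0 hK) (rho0_center hK))

theorem rho_mk (hK' : Fintype.card K = 25) (g : SU 3 K 5) (k : Fin g_n) :
    Epts hK hw h5 hK' (rho hK hw h5 hK' (QuotientGroup.mk g) k) = suEquiv 3 5 g • ptF hK hw h5 k := by
  show Epts hK hw h5 hK' ((Epts hK hw h5 hK').symm (rho0 hK g (Epts hK hw h5 hK' k))) = _
  rw [Equiv.apply_symm_apply]
  rfl

/-- The element of `PSU₃(5)` of a matrix in the list acts as the code says. -/
theorem rep_of_mat (hK' : Fintype.card K = 25) {q : ℕ × ℕ} (hq : q ∈ mats) (hval : ∃ g, Core.Rep g_w g_mask e0 q.2 g) :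
    ∃ x : PSU 3 K 5, Core.Rep g_w g_mask e0 q.2 (rho hK hw h5 hK' x) := by
  have h1 := (Core.allL_eq_true _ _).1 mats_ok q hq
  simp only [Bool.and_eq_true] at h1
  obtain ⟨⟨hN, hd⟩, hm⟩ := h1
  have hd' : detC q.1 = 1 := Nat.eq_of_beq_eq_true hd
  refine ⟨QuotientGroup.mk (suOf hw h5 hN hd'), fun a => ?_⟩
  have ha : (e0 a).1 = a.1 := rfl
  have hlt : ap q.2 a.1 < 126 := ap_lt hval a.1 a.2
  have hmat := allUpTo_iff.mp hm a.1 a.2
  set b : Fin g_n := ⟨ap q.2 a.1, hlt⟩ with hb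
  have key : rho hK hw h5 hK' (QuotientGroup.mk (suOf hw h5 hN hd')) a = b := by
    apply (Epts hK hw h5 hK').injective
    rw [rho_mk]
    show suEquiv 3 5 (suOf hw h5 hN hd') • pt (hform hK 3) (toV w (pc a.1)) _ _ = ptF hK hw h5 b
    rw [su_smul_pt]
    apply Subtype.ext
    show Projectivization.mk K ((suEquiv 3 5 (suOf hw h5 hN hd')).1 (toV w (pc a.1))) _ =
      Projectivization.mk K (toV w (pc b.1)) _
    rw [Projectivization.mk_eq_mk_iff']
    have hv : (suEquiv 3 5 (suOf hw h5 hN hd')).1 (toV w (pc a.1)) = toM w q.1 *ᵥ toV w (pc a.1) := rfl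
    rw [hv]
    apply vec_of_prop hw h5 hmat
    · exact mv_toV hw h5 q.1 (pc a.1) 0
    · exact mv_toV hw h5 q.1 (pc a.1) 1
    · exact mv_toV hw h5 q.1 (pc a.1) 2
  show ap q.2 a.1 = (rho hK hw h5 hK' (QuotientGroup.mk (suOf hw h5 hN hd')) a).1
  rw [key]

theorem rep_gen (hK' : Fintype.card K = 25) {c : ℕ} (hc : c ∈ g_T) :
    ∃ x : PSU 3 K 5, Core.Rep g_w g_mask e0 c (rho hK hw h5 hK' x) := by
  rw [← mats_T] at hc
  obtain ⟨q, hq, rfl⟩ := List.mem_map.1 hc
  refine rep_of_mat hK hw h5 hK' hq (rep_T _ ?_)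
  rw [← mats_T]
  exact List.mem_map_of_mem hq

theorem rho_inj (hK' : Fintype.card K = 25) : Function.Injective (rho hK hw h5 hK') := by
  have hs := isSimpleGroup_PSU hK 3 (by norm_num) (by norm_num)
  rcases hs.eq_bot_or_eq_top_of_normal (rho hK hw h5 hK').ker inferInstance with h | h
  · exact (MonoidHom.ker_eq_bot_iff _).1 h
  · exfalso
    obtain ⟨x, hx⟩ := rep_gen hK hw h5 hK' g_mem.1
    have h1 : x ∈ (rho hK hw h5 hK').ker := by
      rw [h]
      exact Subgroup.mem_top x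
    rw [MonoidHom.mem_ker] at h1
    rw [h1] at hx
    have h2 := hx ⟨1, by decide⟩
    have h3 : ap zc 1 = 1 := h2
    exact absurd h3 (by decide +kernel)

theorem Hp_le (hK' : Fintype.card K = 25) : Hp ≤ (rho hK hw h5 hK').range := by
  apply (Subgroup.closure_le _).2
  rintro g ⟨c, hc, hg⟩
  obtain ⟨x, hx⟩ := rep_gen hK hw h5 hK' hc
  rw [hg.unique hx]
  exact ⟨x, rfl⟩

include hK in
omit hw h5 in
theorem card_PSU35 : Nat.card (PSU 3 K 5) = 126000 := by
  have h := Cfsg.Agent.Lib.Classical.HermOrders.card_PSU hK 3 (by norm_num)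
  have e1 : ∏ i ∈ Finset.range 3, (if Even i then 5 ^ (i + 1) + 1 else 5 ^ (i + 1) - 1) = 18144 := by
    decide
  rw [e1] at h
  norm_num at h
  omega

theorem card_range (hK' : Fintype.card K = 25) : Nat.card (rho hK hw h5 hK').range = 126000 := by
  rw [← Nat.card_congr (MonoidHom.ofInjective (rho_inj hK hw h5 hK')).toEquiv, card_PSU35 hK]

end Points

/-- The order of the permutation group, given a bound. -/
theorem main_H (hle : Nat.card Hp ≤ Core.orderC g_levels) :
    g_mask = 2 ^ g_w - 1 ∧ (∀ i < g_n, Core.app g_w g_mask g_idc i = i) ∧ g_idc < 2 ^ (g_n * g_w) ∧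
      Core.Sem g_w g_mask e0 g_L g_maskL g_levels ∧ Hp = Core.H g_w g_mask e0 (Core.topGens g_levels) ∧
      Nat.card Hp = Core.orderC g_levels :=
  LiteChain.main_of_lite rep_T chain_ok hle

/-- `PSU₃(5)` is the permutation group. -/
theorem exists_equiv {K : Type*} [Field K] [Fintype K] (hK : Fintype.card K = 25) :
    Nonempty (PSU 3 K 5 ≃* Hp) ∧ Nat.card Hp ≤ Core.orderC g_levels := by
  have hK2 : Fintype.card K = 5 ^ 2 := by rw [hK]; norm_num
  have h5 := five_zero hK
  obtain ⟨w, hw⟩ := exists_w hK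
  have hle := Hp_le hK2 hw h5 hK
  have hr := card_range hK2 hw h5 hK
  have hb : Nat.card Hp ≤ Core.orderC g_levels := by
    rw [order_ok, ← hr]
    exact Subgroup.card_le_of_le hle
  refine ⟨?_, hb⟩
  obtain ⟨-, -, -, -, -, hc⟩ := main_H hb
  have heq : Hp = (rho hK2 hw h5 hK).range := by
    apply Subgroup.eq_of_le_of_card_ge hle
    rw [hc, order_ok, hr]
  exact ⟨(MonoidHom.ofInjective (rho_inj hK2 hw h5 hK)).trans (MulEquiv.subgroupCongr heq.symm)⟩

end Cfsg.Agent.Lib.U35.Bridge
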