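import Cfsg.Agent.Lib.Golay.Core
import Cfsg.Agent.Lib.Classical.HermOrders
import Cfsg.Agent.Lib.Classical.HermBridge
import Cfsg.Agent.Lib.U35.Data

/-!
# The field with 25 elements, coded by numbers

The field with 25 elements is coded by numbers `a + 5 b` below 25, standing for `a + b w` with `w² = 2`, with a
homomorphism to any field `K` with 25 elements.  Matrices and vectors are packed into numbers.
-/

set_option autoImplicit false
set_option linter.unusedSectionVars false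
set_option linter.unusedVariables false
set_option linter.style.longLine false
set_option linter.unnecessarySimpa false
set_option linter.style.haveILetI false

namespace Cfsg.Agent.Lib.U35.Field

open Cfsg Cfsg.Agent.Lib.Golay.Core Cfsg.Agent.Lib.U35.Data
open scoped Matrix

/-! ## Codes -/

def addC (x y : ℕ) : ℕ := (x % 5 + y % 5) % 5 + 5 * ((x / 5 + y / 5) % 5)
def mulC (x y : ℕ) : ℕ :=
  ((x % 5) * (y % 5) + 2 * ((x / 5) * (y / 5))) % 5 + 5 * (((x % 5) * (y / 5) + (x / 5) * (y % 5)) % 5)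
def frobC (x : ℕ) : ℕ := mulC x (mulC (mulC x x) (mulC x x))

/-- Entries of packed matrices. -/
def e (N a b : ℕ) : ℕ := Nat.land (Nat.shiftRight N (5 * (3 * a + b))) 31
/-- Entries of packed vectors. -/
def vv (V a : ℕ) : ℕ := Nat.land (Nat.shiftRight V (5 * a)) 31
/-- The points. -/
def pc (k : ℕ) : ℕ := Nat.land (Nat.shiftRight PC (15 * k)) 32767

/-- Matrix times vector, one coordinate. -/
def mvi (N V a : ℕ) : ℕ :=
  addC (addC (mulC (e N a 0) (vv V 0)) (mulC (e N a 1) (vv V 1))) (mulC (e N a 2) (vv V 2))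

/-- The form on vectors. -/
def hC (U V : ℕ) : ℕ :=
  addC (addC (mulC (vv U 0) (frobC (vv V 0))) (mulC (vv U 1) (frobC (vv V 1)))) (mulC (vv U 2) (frobC (vv V 2)))

/-- The code of `-1`. -/
def m1 : ℕ := 4

def negC (x : ℕ) : ℕ := mulC m1 x

/-- The determinant. -/
def detC (N : ℕ) : ℕ :=
  let t (a b c : ℕ) : ℕ := mulC (e N 0 a) (mulC (e N 1 b) (e N 2 c))
  addC (addC (addC (addC (addC (t 0 1 2) (negC (t 0 2 1))) (negC (t 1 0 2))) (t 1 2 0)) (t 2 0 1)) (negC (t 2 1 0))

/-- The form on columns. -/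
def colC (N b c : ℕ) : ℕ :=
  addC (addC (mulC (e N 0 b) (frobC (e N 0 c))) (mulC (e N 1 b) (frobC (e N 1 c)))) (mulC (e N 2 b) (frobC (e N 2 c)))

/-- The columns are orthonormal. -/
def orthB (N : ℕ) : Bool :=
  allUpTo (fun b => allUpTo (fun c => Nat.beq (colC N b c) (bif Nat.beq b c then 1 else 0)) 3) 3

/-- The first non-zero coordinate. -/
def lamOf (a b c : ℕ) : ℕ := bif Nat.beq a 0 then (bif Nat.beq b 0 then c else b) else a

/-- `(a,b,c)` is `λ` times the point `k`, with the first non-zero coordinate as `λ`. -/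
def propB (a b c k : ℕ) : Bool :=
  let l := lamOf a b c
  let P := pc k
  Nat.beq a (mulC l (vv P 0)) && Nat.beq b (mulC l (vv P 1)) && Nat.beq c (mulC l (vv P 2))

/-- A non-zero coordinate `1`. -/
def oneB (V : ℕ) : Bool := Nat.beq (vv V 0) 1 || Nat.beq (vv V 1) 1 || Nat.beq (vv V 2) 1

/-- The code of the form of the coordinates. -/
def hT (a b c : ℕ) : ℕ := addC (addC (mulC a (frobC a)) (mulC b (frobC b))) (mulC c (frobC c))

/-- A minor of two vectors. -/
def minorC (U V i j : ℕ) : ℕ := addC (mulC (vv U i) (vv V j)) (negC (mulC (vv U j) (vv V i)))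

/-- Two vectors are not proportional. -/
def npB (U V : ℕ) : Bool :=
  !(Nat.beq (minorC U V 0 1) 0 && Nat.beq (minorC U V 0 2) 0 && Nat.beq (minorC U V 1 2) 0)

/-- Facts on the points. -/
theorem pts_ok : allUpTo (fun k => Nat.beq (hC (pc k) (pc k)) 0 && oneB (pc k)) 126 = true := by
  decide +kernel

theorem pts_np : allUpTo (fun k => allUpTo (fun l => npB (pc k) (pc l)) k) 126 = true := by
  decide +kernel

theorem pts_all : allUpTo (fun a => allUpTo (fun b => allUpTo (fun c =>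
    (!Nat.beq (hT a b c) 0) || (Nat.beq a 0 && Nat.beq b 0 && Nat.beq c 0) ||
      (List.range 126).any (propB a b c)) 25) 25) 25 = true := by
  decide +kernel

theorem norm_code : ∀ s < 25, s ≠ 0 → (mulC s (frobC s) = 1 ∨ mulC s (frobC s) = 2 ∨ mulC s (frobC s) = 3 ∨
    mulC s (frobC s) = 4) := by
  decide +kernel

theorem inj_code : ∀ x < 25, ∀ y < 25, addC x (negC y) = 0 → x = y := by
  decide +kernel

theorem addC_lt (x y : ℕ) : addC x y < 25 := by
  unfold addC
  omega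

/-! ## The homomorphism to `K` -/

section K

variable {K : Type*} [Field K]

/-- The value of a code. -/
def φ (w : K) (x : ℕ) : K := ((x % 5 : ℕ) : K) + ((x / 5 : ℕ) : K) * w

theorem cast_mod (h5 : (5 : K) = 0) (n : ℕ) : ((n % 5 : ℕ) : K) = (n : K) := by
  have h := Nat.div_add_mod n 5
  have h2 := congrArg (Nat.cast : ℕ → K) h
  push_cast at h2
  rw [h5, zero_mul, zero_add] at h2
  exact h2

variable {w : K} (hw : w * w = 2) (h5 : (5 : K) = 0)
include hw h5

theorem φ_add (x y : ℕ) : φ w (addC x y) = φ w x + φ w y := by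
  unfold φ addC
  have e1 : ((x % 5 + y % 5) % 5 + 5 * ((x / 5 + y / 5) % 5)) % 5 = (x % 5 + y % 5) % 5 := by omega
  have e2 : ((x % 5 + y % 5) % 5 + 5 * ((x / 5 + y / 5) % 5)) / 5 = (x / 5 + y / 5) % 5 := by omega
  rw [e1, e2, cast_mod h5, cast_mod h5]
  push_cast
  ring

theorem φ_mul (x y : ℕ) : φ w (mulC x y) = φ w x * φ w y := by
  unfold φ mulC
  set a := x % 5
  set b := x / 5
  set c := y % 5
  set d := y / 5
  have e1 : ((a * c + 2 * (b * d)) % 5 + 5 * ((a * d + b * c) % 5)) % 5 = (a * c + 2 * (b * d)) % 5 := by omega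
  have e2 : ((a * c + 2 * (b * d)) % 5 + 5 * ((a * d + b * c) % 5)) / 5 = (a * d + b * c) % 5 := by omega
  rw [e1, e2, cast_mod h5, cast_mod h5]
  push_cast
  linear_combination (-((b : K) * d)) * hw

theorem φ_frob (x : ℕ) : φ w (frobC x) = φ w x ^ 5 := by
  unfold frobC
  rw [φ_mul hw h5, φ_mul hw h5, φ_mul hw h5]
  ring

omit hw in
theorem φ_one : φ w 1 = 1 := by
  simp [φ]

omit hw h5 in
theorem φ_zero : φ w 0 = 0 := by
  simp [φ]

omit hw in
theorem φ_m1 : φ w m1 = -1 := by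
  have : φ w m1 = 4 := by simp [φ, m1]
  rw [this]
  linear_combination h5

theorem φ_neg (x : ℕ) : φ w (negC x) = - φ w x := by
  unfold negC
  rw [φ_mul hw h5, φ_m1 h5]
  ring

omit hw in
theorem small_ne {n : ℕ} (h1 : 1 ≤ n) (h2 : n ≤ 4) : (n : K) ≠ 0 := by
  intro h
  have h3 : (1 : K) = 0 := by
    interval_cases n
    · simpa using h
    · have h' : (2 : K) = 0 := by exact_mod_cast h
      linear_combination h5 - 2 * h'
    · have h' : (3 : K) = 0 := by exact_mod_cast h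
      linear_combination 2 * h' - h5
    · have h' : (4 : K) = 0 := by exact_mod_cast h
      linear_combination h5 - h'
  exact one_ne_zero h3

/-- The map on codes is injective. -/
theorem φ_inj {x y : ℕ} (hx : x < 25) (hy : y < 25) (h : φ w x = φ w y) : x = y := by
  apply inj_code x hx y hy
  set s := addC x (negC y) with hs
  have hs0 : φ w s = 0 := by
    rw [hs, φ_add hw h5, φ_neg hw h5, h]
    ring
  have hlt : s < 25 := addC_lt _ _
  by_contra hne
  have h2 := norm_code s hlt hne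
  have h4 : φ w (mulC s (frobC s)) = 0 := by
    rw [φ_mul hw h5, hs0, zero_mul]
  have h6 : ∀ n : ℕ, 1 ≤ n → n ≤ 4 → φ w n ≠ 0 := by
    intro n h1 h3
    have : φ w n = (n : K) := by
      unfold φ
      rw [Nat.mod_eq_of_lt (by omega), Nat.div_eq_of_lt (by omega)]
      simp
    rw [this]
    exact small_ne h5 h1 h3
  rcases h2 with h2 | h2 | h2 | h2 <;> rw [h2] at h4 <;> exact h6 _ (by norm_num) (by norm_num) h4

/-- The map on codes is onto, if `K` has 25 elements. -/
theorem φ_surj [Fintype K] (hK : Fintype.card K = 25) (k : K) : ∃ x < 25, φ w x = k := by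
  let f : Fin 25 → K := fun x => φ w x.1
  have hf : Function.Injective f := fun a b h => Fin.ext (φ_inj hw h5 a.2 b.2 h)
  have hb : Function.Bijective f := (Fintype.bijective_iff_injective_and_card f).2 ⟨hf, by simp [hK]⟩
  obtain ⟨x, hx⟩ := hb.2 k
  exact ⟨x.1, x.2, hx⟩

omit hw h5 in
/-- The matrix of a code. -/
def toM (w : K) (N : ℕ) : Matrix (Fin 3) (Fin 3) K := Matrix.of fun a b : Fin 3 => φ w (e N a.1 b.1)

omit hw h5 in
/-- The vector of a code. -/
def toV (w : K) (V : ℕ) : Fin 3 → K := fun a => φ w (vv V a.1)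

theorem mv_toV (N V : ℕ) (a : Fin 3) : (toM w N *ᵥ toV w V) a = φ w (mvi N V a.1) := by
  unfold mvi
  simp only [φ_add hw h5, φ_mul hw h5]
  rw [Matrix.mulVec, dotProduct, Fin.sum_univ_three]
  rfl

theorem herm_toV (U V : ℕ) : hermForm 3 K 5 (toV w U) (toV w V) = φ w (hC U V) := by
  unfold hermForm hC
  rw [Fin.sum_univ_three]
  simp only [φ_add hw h5, φ_mul hw h5, φ_frob hw h5]
  rfl

theorem det_toM (N : ℕ) : (toM w N).det = φ w (detC N) := by
  rw [Matrix.det_fin_three]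
  unfold detC
  simp only [φ_add hw h5, φ_mul hw h5, φ_neg hw h5]
  show φ w (e N 0 0) * φ w (e N 1 1) * φ w (e N 2 2) - φ w (e N 0 0) * φ w (e N 1 2) * φ w (e N 2 1) -
    φ w (e N 0 1) * φ w (e N 1 0) * φ w (e N 2 2) + φ w (e N 0 1) * φ w (e N 1 2) * φ w (e N 2 0) +
    φ w (e N 0 2) * φ w (e N 1 0) * φ w (e N 2 1) - φ w (e N 0 2) * φ w (e N 1 1) * φ w (e N 2 0) = _
  ring

/-- Fifth powers of sums. -/
theorem pow_add3 (x y z : K) : (x + y + z) ^ 5 = x ^ 5 + y ^ 5 + z ^ 5 := by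
  linear_combination (x ^ 4 * y + x ^ 4 * z + 2 * x ^ 3 * y ^ 2 + 4 * x ^ 3 * y * z + 2 * x ^ 3 * z ^ 2 + 2 * x ^ 2 * y ^ 3 +
    6 * x ^ 2 * y ^ 2 * z + 6 * x ^ 2 * y * z ^ 2 + 2 * x ^ 2 * z ^ 3 + x * y ^ 4 + 4 * x * y ^ 3 * z + 6 * x * y ^ 2 * z ^ 2 +
    4 * x * y * z ^ 3 + x * z ^ 4 + y ^ 4 * z + 2 * y ^ 3 * z ^ 2 + 2 * y ^ 2 * z ^ 3 + y * z ^ 4) * h5

theorem col_toM {N : ℕ} (hN : orthB N = true) (b c : Fin 3) :
    toM w N 0 b * (toM w N 0 c) ^ 5 + toM w N 1 b * (toM w N 1 c) ^ 5 + toM w N 2 b * (toM w N 2 c) ^ 5 =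
      if b = c then 1 else 0 := by
  have h1 := Nat.eq_of_beq_eq_true (allUpTo_iff.mp (allUpTo_iff.mp hN b.1 b.2) c.1 c.2)
  have h2 := congrArg (φ w) h1
  unfold colC at h2
  simp only [φ_add hw h5, φ_mul hw h5, φ_frob hw h5] at h2
  have h4 : φ w (bif Nat.beq b.1 c.1 then 1 else 0) = if b = c then 1 else 0 := by
    by_cases h : b = c
    · subst h
      simp [φ_one h5]
    · have h' : b.1 ≠ c.1 := fun h' => h (Fin.ext h')
      have : Nat.beq b.1 c.1 = false := by
        cases hh : Nat.beq b.1 c.1 with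
        | false => rfl
        | true => exact absurd (Nat.eq_of_beq_eq_true hh) h'
      rw [this]
      simp [h, φ_zero]
  rw [h4] at h2
  exact h2

/-- A matrix with orthonormal columns preserves the form. -/
theorem iso_toM {N : ℕ} (hN : orthB N = true) (u v : Fin 3 → K) :
    hermForm 3 K 5 (toM w N *ᵥ u) (toM w N *ᵥ v) = hermForm 3 K 5 u v := by
  have H := pow_add3 hw h5
  have h00 := col_toM hw h5 hN 0 0
  have h01 := col_toM hw h5 hN 0 1
  have h02 := col_toM hw h5 hN 0 2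
  have h10 := col_toM hw h5 hN 1 0
  have h11 := col_toM hw h5 hN 1 1
  have h12 := col_toM hw h5 hN 1 2
  have h20 := col_toM hw h5 hN 2 0
  have h21 := col_toM hw h5 hN 2 1
  have h22 := col_toM hw h5 hN 2 2
  simp only [Fin.isValue, Fin.reduceEq, if_false, if_true] at h00 h01 h02 h10 h11 h12 h20 h21 h22
  generalize toM w N = X at *
  simp only [hermForm, Matrix.mulVec, dotProduct, Fin.sum_univ_three, H, mul_pow]
  linear_combination u 0 * (v 0) ^ 5 * h00 + u 0 * (v 1) ^ 5 * h01 + u 0 * (v 2) ^ 5 * h02 +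
    u 1 * (v 0) ^ 5 * h10 + u 1 * (v 1) ^ 5 * h11 + u 1 * (v 2) ^ 5 * h12 +
    u 2 * (v 0) ^ 5 * h20 + u 2 * (v 1) ^ 5 * h21 + u 2 * (v 2) ^ 5 * h22

/-- The element of `SU₃(5)` of a code. -/
def suOf {N : ℕ} (hN : orthB N = true) (hd : detC N = 1) : ↥(SU 3 K 5) :=
  ⟨⟨toM w N, by rw [det_toM hw h5, hd, φ_one h5]⟩, iso_toM hw h5 hN⟩

end K

end Cfsg.Agent.Lib.U35.Field
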