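import Cfsg.Agent.Lib.U35.Data
import Cfsg.Agent.Lib.U35.Field
import Cfsg.Agent.Lib.PermComp.Walk
import Cfsg.Agent.Lib.PermComp.Simple

/-! # Kernel checks for `PSU₃(5)` -/

set_option autoImplicit false
set_option maxRecDepth 100000

namespace Cfsg.Agent.Lib.U35.Checks

open _root_.Cfsg.Agent.Lib.PermComp Cfsg.Agent.Lib.U35.Data Cfsg.Agent.Lib.U35.Field
open Cfsg.Agent.Lib.Golay.Core

/-- Digit lookup. -/
abbrev ap (c i : Nat) : Nat := Core.app g_w g_mask c i

/-- The root element at a point. -/
def ztc (y : Nat) : Nat := Core.app g_L g_maskL ZU y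

/-- The induced permutation matches the matrix at the point `k`. -/
def matchB (N c k : Nat) : Bool :=
  propB (mvi N (pc k) 0) (mvi N (pc k) 1) (mvi N (pc k) 2) (ap c k)

theorem chain_ok : LiteChain.checkLiteAll g_n g_w g_mask g_L g_maskL g_idc g_T g_prog g_levels = true := by
  decide +kernel

theorem order_ok : Core.orderC g_levels = 126000 := by
  decide +kernel

theorem hid : g_mask = 2 ^ g_w - 1 ∧ ∀ i < g_n, Core.app g_w g_mask g_idc i = i := by
  decide +kernel

theorem T_valid : Core.allL (Simple.validB g_n g_w g_mask g_idc) g_T = true := by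
  decide +kernel

theorem mats_T : mats.map (·.2) = g_T := by
  decide +kernel

theorem mats_ok : Core.allL (fun q : Nat × Nat => orthB q.1 && Nat.beq (detC q.1) 1 &&
    allUpTo (matchB q.1 q.2) 126) mats = true := by
  decide +kernel

theorem p_ok : Core.checkAll g_n g_w g_mask g_L g_maskL g_idc p_T p_prog p_levels = true := by
  decide +kernel

theorem p_order : Core.orderC p_levels = 125 := by
  decide +kernel

theorem a_ok : Core.checkAll g_n g_w g_mask g_L g_maskL g_idc a_T a_prog a_levels = true := by
  decide +kernel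

theorem a_order : Core.orderC a_levels = 2520 := by
  decide +kernel

theorem a_sub : ∀ c ∈ a_T, c ∈ g_T := by
  decide +kernel

theorem p_sub : ∀ c ∈ p_T, c ∈ g_T := by
  decide +kernel

theorem p_T_eq : p_T = [zc, q1c, q2c] := by
  decide +kernel

theorem g_mem : zc ∈ g_T ∧ q1c ∈ g_T ∧ q2c ∈ g_T ∧ sc ∈ g_T := by
  decide +kernel

theorem lev0_base : g_lev0.base = 0 ∧ p_lev0.base = 1 := by
  decide +kernel

theorem g_levels_eq : ∃ t, g_levels = g_lev0 :: t := ⟨_, rfl⟩

theorem p_levels_eq : p_levels = [p_lev0] := rfl

theorem lev0_orb : allUpTo (fun a => Core.bit g_lev0.orb a) 126 = true := by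
  decide +kernel

theorem p_orb : allUpTo (fun a => Nat.beq a 0 || Core.bit p_lev0.orb a) 126 = true := by
  decide +kernel

theorem zt_valid : allUpTo (fun y => Simple.validB g_n g_w g_mask g_idc (ztc y)) 126 = true := by
  decide +kernel

theorem zt_zero : ztc 0 = zc := by
  decide +kernel

theorem zt_five : allUpTo (fun y => allUpTo (fun i =>
    Nat.beq (ap (ztc y) (ap (ztc y) (ap (ztc y) (ap (ztc y) (ap (ztc y) i))))) i) 126) 126 = true := by
  decide +kernel

theorem zt_ne : allUpTo (fun y => (List.range 126).any (fun i => !Nat.beq (ap (ztc y) i) i)) 126 = true := by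
  decide +kernel

/-- The `m`-th power of a code, as a function on points. -/
def apN (c m i : Nat) : Nat := Nat.rec i (fun _ r => ap c r) m

/-- The relation at a generator and a point. -/
def relB (g y : Nat) : Bool :=
  [1, 2, 3, 4].any fun m => allUpTo (fun i => Nat.beq (ap g (ap (ztc y) i)) (apN (ztc (ap g y)) m (ap g i))) 126

theorem rel_ok : Core.allL (fun g => allUpTo (relB g) 126) g_T = true := by
  decide +kernel

theorem p_fix : Core.allL (fun c => Nat.beq (ap c 0) 0) p_T = true := by
  decide +kernel

theorem p_comm : Core.allL (fun c => allUpTo (fun i => Nat.beq (ap c (ap zc i)) (ap zc (ap c i))) 126) p_T = true := by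
  decide +kernel

theorem q_noncomm : ap q1c (ap q2c 1) ≠ ap q2c (ap q1c 1) := by
  decide +kernel

theorem s_facts : ap sc 0 = 0 ∧ Walk.powc g_n g_w g_mask g_idc sc 8 = g_idc ∧
    (List.range 126).any (fun i => !Nat.beq (ap (Walk.powc g_n g_w g_mask g_idc sc 4) i) i) = true ∧
    Core.comp g_n g_w g_mask sc sic = g_idc ∧ Core.comp g_n g_w g_mask sic sc = g_idc := by
  decide +kernel

/-- The points on the line through `o` and `x0`. -/
def zorb : List Nat := (List.range 5).map (fun i => apN zc i 1)

/-- One step of a closure certificate. -/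
noncomputable def runCert (steps : List Nat) : Nat → Bool :=
  List.rec (motive := fun _ => Nat → Bool) (fun S => Nat.beq S (2 ^ 126 - 1))
    (fun t _ ih S =>
      Core.ifB (Core.bit S (t / 128)) <|
      Core.ifB (Core.bit S (t % 128)) <|
      Core.force (Core.setBit S (ap (ztc (t / 128)) (t % 128))) ih) steps

theorem cl_ok : Core.allL (fun q : Nat × List Nat =>
    runCert q.2 (Core.setBit (Core.setBit (Core.setBit 0 0) 1) q.1)) clData = true := by
  decide +kernel

theorem cl_all : allUpTo (fun y => Nat.beq y 0 || zorb.any (Nat.beq y) ||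
    (clData.map (·.1)).any (Nat.beq y)) 126 = true := by
  decide +kernel

/-- The element of the Sylow subgroup at `a`, tested against the element of order 8. -/
noncomputable def sTest (a : Nat) : Bool :=
  Core.force (Core.app g_L g_maskL p_lev0.U a) fun c =>
    Nat.beq (Walk.powc g_n g_w g_mask g_idc c 5) g_idc &&
    [0, 1, 2, 3, 4].all fun k => !Nat.beq (ap sc (ap c (ap sic 1))) (apN c k 1)

theorem s_check : allUpTo (fun a => Nat.beq a 0 || zorb.any (Nat.beq a) || sTest a) 126 = true := by
  decide +kernel

end Cfsg.Agent.Lib.U35.Checks
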