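import Cfsg.Agent.Lib.U35.Bridge
import Cfsg.Agent.Lib.U35.Abs

/-! # The hypotheses for the permutation group of `PSU₃(5)` -/

set_option autoImplicit false
set_option maxRecDepth 100000
set_option linter.unusedSectionVars false
set_option linter.unusedVariables false
set_option linter.style.longLine false
set_option linter.unnecessarySimpa false
set_option linter.style.haveILetI false

namespace Cfsg.Agent.Lib.U35.Concrete

open Subgroup
open Cfsg Cfsg.Agent.Lib.Golay.Core Cfsg.Agent.Lib.U35.Data Cfsg.Agent.Lib.U35.Field Cfsg.Agent.Lib.U35.Checks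
open Cfsg.Agent.Lib.U35.Bridge
open _root_.Cfsg.Agent.Lib.PermComp

/-- The base point of the chain. -/
def pt0 : Fin g_n := ⟨0, by decide⟩
/-- The second point. -/
def pt1 : Fin g_n := ⟨1, by decide⟩

/-- Shorthand. -/
abbrev RepP (c : ℕ) (g : Equiv.Perm (Fin g_n)) : Prop := Core.Rep g_w g_mask e0 c g

theorem rep_apply {c : ℕ} {g : Equiv.Perm (Fin g_n)} (h : RepP c g) (a : Fin g_n) : ap c a.1 = (g a).1 := h a

theorem apN_rep {c : ℕ} {g : Equiv.Perm (Fin g_n)} (h : RepP c g) (m : ℕ) (a : Fin g_n) :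
    apN c m a.1 = ((g ^ m) a).1 := by
  induction m with
  | zero => rfl
  | succ m ih =>
    have h1 : apN c (m + 1) a.1 = ap c (apN c m a.1) := rfl
    rw [h1, ih, rep_apply h, pow_succ', Equiv.Perm.mul_apply]

/-- The root elements at the points. -/
noncomputable def ztP (y : Fin g_n) : Equiv.Perm (Fin g_n) :=
  Classical.choose (rep_of_valid (allUpTo_iff.mp zt_valid y.1 y.2))

theorem ztP_rep (y : Fin g_n) : RepP (ztc y.1) (ztP y) :=
  Classical.choose_spec (rep_of_valid (allUpTo_iff.mp zt_valid y.1 y.2))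

/-- The root element at the base point. -/
noncomputable def zg : Equiv.Perm (Fin g_n) := ztP pt0

theorem zg_rep : RepP zc zg := by
  have h := ztP_rep pt0
  rw [show ztc pt0.1 = zc from zt_zero] at h
  exact h

/-- The element of order 8. -/
noncomputable def sg : Equiv.Perm (Fin g_n) := Classical.choose (rep_T sc g_mem.2.2.2)

theorem sg_rep : RepP sc sg := Classical.choose_spec (rep_T sc g_mem.2.2.2)

theorem ztP_five (y : Fin g_n) : ztP y ^ 5 = 1 := by
  ext a
  have h := Nat.eq_of_beq_eq_true (allUpTo_iff.mp (allUpTo_iff.mp zt_five y.1 y.2) a.1 a.2)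
  simp only [rep_apply (ztP_rep y)] at h
  rw [Equiv.Perm.one_apply, ← h]
  simp only [pow_succ, pow_zero, one_mul, Equiv.Perm.mul_apply]

/-- What conjugation does to the root elements. -/
def Good (g : Equiv.Perm (Fin g_n)) : Prop :=
  ∀ y, ∃ m k : ℕ, g * ztP y * g⁻¹ = ztP (g y) ^ m ∧ ztP (g y) = (g * ztP y * g⁻¹) ^ k

theorem good_one : Good 1 := by
  intro y
  refine ⟨1, 1, ?_, ?_⟩ <;> simp

theorem good_mul {g h : Equiv.Perm (Fin g_n)} (hg : Good g) (hh : Good h) : Good (g * h) := by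
  intro y
  obtain ⟨m, k, h1, h2⟩ := hh y
  obtain ⟨m', k', h3, h4⟩ := hg (h y)
  have e1 : (g * h) * ztP y * (g * h)⁻¹ = g * (h * ztP y * h⁻¹) * g⁻¹ := by group
  refine ⟨m' * m, k * k', ?_, ?_⟩
  · rw [e1, h1, ← conj_pow, h3, ← pow_mul]
    rfl
  · rw [e1, pow_mul, conj_pow, ← h2]
    exact h4

theorem good_inv {g : Equiv.Perm (Fin g_n)} (hg : Good g) : Good g⁻¹ := by
  intro y
  obtain ⟨m, k, h1, h2⟩ := hg (g⁻¹ y)
  have e1 : g (g⁻¹ y) = y := by simp
  rw [e1] at h1 h2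
  have e2 : ∀ n : ℕ, g⁻¹ * ztP y ^ n * g = (g⁻¹ * ztP y * g) ^ n := fun n => by
    have := conj_pow (a := g⁻¹) (b := ztP y) (i := n)
    rw [inv_inv] at this
    exact this.symm
  have e3 : g⁻¹ * ztP y * g⁻¹⁻¹ = g⁻¹ * ztP y * g := by rw [inv_inv]
  refine ⟨k, m, ?_, ?_⟩
  · rw [e3]
    have h3 : g⁻¹ * ztP y * g = g⁻¹ * ((g * ztP (g⁻¹ y) * g⁻¹) ^ k) * g := by rw [← h2]
    rw [h3, conj_pow]
    group
  · rw [e3, ← e2, ← h1]
    group

theorem ztP_pow_self (y : Fin g_n) (m k q : ℕ) (h : m * k = 5 * q + 1) : ztP y = (ztP y ^ m) ^ k := by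
  rw [← pow_mul, h, pow_succ, pow_mul, ztP_five, one_pow, one_mul]

theorem good_gen {c : ℕ} {g : Equiv.Perm (Fin g_n)} (hc : c ∈ g_T) (hg : RepP c g) : Good g := by
  intro y
  have h1 := allUpTo_iff.mp ((Core.allL_eq_true _ _).1 rel_ok c hc) y.1 y.2
  obtain ⟨m, hm, h2⟩ := List.any_eq_true.1 h1
  have h3 : ∀ a : Fin g_n, g (ztP y a) = (ztP (g y) ^ m) (g a) := by
    intro a
    apply Fin.ext
    have h4 := Nat.eq_of_beq_eq_true (allUpTo_iff.mp h2 a.1 a.2)
    rw [rep_apply (ztP_rep y), rep_apply hg, rep_apply hg, rep_apply hg] at h4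
    rw [apN_rep (ztP_rep (g y))] at h4
    exact h4
  have h5 : g * ztP y * g⁻¹ = ztP (g y) ^ m := by
    ext a
    have h6 := h3 (g⁻¹ a)
    have h7 : g (g⁻¹ a) = a := by simp
    rw [h7] at h6
    rw [← h6]
    rfl
  have hm' : m = 1 ∨ m = 2 ∨ m = 3 ∨ m = 4 := by
    simpa using hm
  rcases hm' with rfl | rfl | rfl | rfl
  · exact ⟨1, 1, h5, by rw [h5]; exact ztP_pow_self _ 1 1 0 (by norm_num)⟩
  · exact ⟨2, 3, h5, by rw [h5]; exact ztP_pow_self _ 2 3 1 (by norm_num)⟩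
  · exact ⟨3, 2, h5, by rw [h5]; exact ztP_pow_self _ 3 2 1 (by norm_num)⟩
  · exact ⟨4, 4, h5, by rw [h5]; exact ztP_pow_self _ 4 4 3 (by norm_num)⟩

theorem good_all {g : Equiv.Perm (Fin g_n)} (hg : g ∈ Hp) : Good g := by
  induction hg using Subgroup.closure_induction with
  | mem x hx =>
    obtain ⟨c, hc, hr⟩ := hx
    exact good_gen hc hr
  | one => exact good_one
  | mul x y _ _ hx hy => exact good_mul hx hy
  | inv x _ hx => exact good_inv hx

/-! ### The Sylow subgroup -/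

/-- The Sylow subgroup as a subgroup of permutations. -/
abbrev Hq : Subgroup (Equiv.Perm (Fin g_n)) := Core.H g_w g_mask e0 p_T

theorem Hq_le : Hq ≤ Hp := Core.H_mono p_sub

theorem p_main : g_mask = 2 ^ g_w - 1 ∧ (∀ i < g_n, Core.app g_w g_mask g_idc i = i) ∧ g_idc < 2 ^ (g_n * g_w) ∧
      Core.Sem g_w g_mask e0 g_L g_maskL p_levels ∧ Hq = Core.H g_w g_mask e0 (Core.topGens p_levels) ∧
      Nat.card Hq = Core.orderC p_levels :=
  Core.main_of_checkAll (fun c hc => rep_T c (p_sub c hc)) p_ok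

theorem p_lev : Core.LevelSem g_w g_mask e0 g_L g_maskL p_lev0 [] := p_main.2.2.2.1.1

theorem Hq_eq : Hq = Core.H g_w g_mask e0 p_lev0.gens := p_main.2.2.2.2.1

theorem card_Hq : Nat.card Hq = 125 := by
  rw [p_main.2.2.2.2.2, p_order]

theorem hb1 : ((e0 pt1 : Fin g_n) : ℕ) = p_lev0.base := lev0_base.2.symm

theorem Hq_fix {g : Equiv.Perm (Fin g_n)} (hg : g ∈ Hq) : g pt0 = pt0 := by
  have hle : Hq ≤ MulAction.stabilizer (Equiv.Perm (Fin g_n)) pt0 := by
    apply (closure_le _).2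
    rintro g ⟨c, hc, hr⟩
    have h1 := Nat.eq_of_beq_eq_true ((Core.allL_eq_true _ _).1 p_fix c hc)
    show g pt0 = pt0
    apply Fin.ext
    rw [← rep_apply hr pt0]
    exact h1
  exact hle hg

theorem zg_mem_Hq : zg ∈ Hq := Core.H_of_rep (by rw [p_T_eq]; simp) zg_rep

theorem Hq_comm {g : Equiv.Perm (Fin g_n)} (hg : g ∈ Hq) : g * zg = zg * g := by
  have hle : Hq ≤ centralizer ({zg} : Set (Equiv.Perm (Fin g_n))) := by
    apply (closure_le _).2
    rintro g ⟨c, hc, hr⟩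
    have h1 := (Core.allL_eq_true _ _).1 p_comm c hc
    show g ∈ centralizer ({zg} : Set (Equiv.Perm (Fin g_n)))
    rw [mem_centralizer_iff]
    rintro _ rfl
    ext a
    have h2 := Nat.eq_of_beq_eq_true (allUpTo_iff.mp h1 a.1 a.2)
    rw [rep_apply zg_rep, rep_apply hr, rep_apply hr, rep_apply zg_rep] at h2
    exact h2.symm
  have h := hle hg
  rw [mem_centralizer_iff] at h
  exact (h zg rfl).symm

theorem zg_fix_not (h : ∀ a, zg a = a) : False := by
  have h1 := rep_apply zg_rep pt1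
  rw [h] at h1
  have h2 : ap zc 1 = 1 := h1
  exact absurd h2 (by decide +kernel)

/-- The subgroup in the group. -/
noncomputable abbrev P5 : Subgroup ↥Hp := Hq.subgroupOf Hp

/-- The elements in the group. -/
noncomputable def zP : ↥Hp := ⟨zg, Core.H_of_rep g_mem.1 zg_rep⟩
noncomputable def sP : ↥Hp := ⟨sg, Core.H_of_rep g_mem.2.2.2 sg_rep⟩

theorem card_P5 : Nat.card P5 = 125 := by
  rw [Nat.card_congr (subgroupOfEquivOfLe Hq_le).toEquiv, card_Hq]

theorem reach_main (x : Fin g_n) (hx : x ≠ pt0) : ∃ p ∈ P5, p • x = pt1 := by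
  have h1 := allUpTo_iff.mp p_orb x.1 x.2
  have hx0 : Nat.beq x.1 0 = false := by
    cases hh : Nat.beq x.1 0 with
    | false => rfl
    | true =>
      exfalso
      apply hx
      exact Fin.ext (Nat.eq_of_beq_eq_true hh)
  rw [hx0, Bool.false_or] at h1
  obtain ⟨b', u, hbe, hub, htab, hlt, hnd, hbit, hnest, hKb, hfact⟩ := p_lev
  have hpts : x.1 ∈ Core.ptsOf p_lev0 := (hbit x.1).1 h1
  obtain ⟨g, hg, hgx⟩ := (Chain.orbit_iff p_lev hb1 x).1 hpts
  rw [← Hq_eq] at hg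
  have hg' : g⁻¹ ∈ Hq := inv_mem hg
  refine ⟨⟨g⁻¹, Hq_le hg'⟩, ?_, ?_⟩
  · rw [mem_subgroupOf]
    exact hg'
  · show g⁻¹ x = pt1
    rw [← hgx]
    simp

/-! ### The closure certificates -/

/-- The invariant of the certificate. -/
def Inv (O : Set (Fin g_n)) (S : ℕ) : Prop := ∀ x, Core.bit S x = true → ∃ h : x < 126, (⟨x, h⟩ : Fin g_n) ∈ O

theorem runCert_cons (t : ℕ) (rest : List ℕ) (S : ℕ) :
    runCert (t :: rest) S = Core.ifB (Core.bit S (t / 128)) (Core.ifB (Core.bit S (t % 128))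
      (runCert rest (Core.setBit S (ap (ztc (t / 128)) (t % 128))))) := by
  show Core.ifB _ (Core.ifB _ (Core.force _ _)) = _
  rw [Core.force_eq]
  rfl

theorem run_sound {O : Set (Fin g_n)} (hO : ∀ y ∈ O, ∀ w ∈ O, ztP y w ∈ O) (steps : List ℕ) :
    ∀ S, runCert steps S = true → Inv O S → O = Set.univ := by
  induction steps with
  | nil =>
    intro S h hS
    have h1 : S = 2 ^ 126 - 1 := Nat.eq_of_beq_eq_true h
    rw [Set.eq_univ_iff_forall]
    intro x
    have h2 : Core.bit S x.1 = true := by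
      rw [Core.bit_eq_testBit, h1, Nat.testBit_two_pow_sub_one, decide_eq_true_eq]
      exact x.2
    obtain ⟨_, h3⟩ := hS _ h2
    exact h3
  | cons t rest ih =>
    intro S h hS
    rw [runCert_cons, Core.ifB_eq_true, Core.ifB_eq_true] at h
    obtain ⟨h1, h2, h3⟩ := h
    refine ih _ h3 ?_
    obtain ⟨hy, hyO⟩ := hS _ h1
    obtain ⟨hw, hwO⟩ := hS _ h2
    intro x hx
    rw [Core.bit_setBit] at hx
    rcases hx with hx | rfl
    · exact hS x hx
    · have h4 := hO _ hyO _ hwO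
      have h5 := rep_apply (ztP_rep ⟨t / 128, hy⟩) ⟨t % 128, hw⟩
      have h6 : ap (ztc (t / 128)) (t % 128) = (ztP ⟨t / 128, hy⟩ ⟨t % 128, hw⟩).1 := h5
      refine ⟨by rw [h6]; exact (ztP ⟨t / 128, hy⟩ ⟨t % 128, hw⟩).2, ?_⟩
      have h7 : (⟨ap (ztc (t / 128)) (t % 128), by rw [h6]; exact (ztP ⟨t / 128, hy⟩ ⟨t % 128, hw⟩).2⟩ : Fin g_n) =
          ztP ⟨t / 128, hy⟩ ⟨t % 128, hw⟩ := Fin.ext h6
      rw [h7]
      exact h4

theorem closure_main (O : Set (Fin g_n)) (h0 : pt0 ∈ O) (h1 : pt1 ∈ O) (y0 : Fin g_n) (hy0 : y0 ∈ O)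
    (hne : y0 ≠ pt0) (hz : ∀ i : ℕ, y0 ≠ zP ^ i • pt1) (hO : ∀ y ∈ O, ∀ w ∈ O, ztP y w ∈ O) : O = Set.univ := by
  have h2 := allUpTo_iff.mp cl_all y0.1 y0.2
  have hy00 : Nat.beq y0.1 0 = false := by
    cases hh : Nat.beq y0.1 0 with
    | false => rfl
    | true =>
      exfalso
      apply hne
      exact Fin.ext (Nat.eq_of_beq_eq_true hh)
  have hz0 : zorb.any (Nat.beq y0.1) = false := by
    cases hh : zorb.any (Nat.beq y0.1) with
    | false => rfl
    | true =>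
      exfalso
      obtain ⟨x, hx, hxe⟩ := List.any_eq_true.1 hh
      obtain ⟨i, -, rfl⟩ := List.mem_map.1 hx
      have h3 := Nat.eq_of_beq_eq_true hxe
      apply hz i
      apply Fin.ext
      rw [h3]
      have := apN_rep zg_rep i pt1
      rw [show (pt1 : Fin g_n).1 = 1 from rfl] at this
      rw [this]
      rfl
  rw [hy00, hz0] at h2
  simp only [Bool.false_or] at h2
  obtain ⟨x, hx, hxe⟩ := List.any_eq_true.1 h2
  obtain ⟨q, hq, rfl⟩ := List.mem_map.1 hx
  have h3 := Nat.eq_of_beq_eq_true hxe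
  have h4 := (Core.allL_eq_true _ _).1 cl_ok q hq
  refine run_sound hO q.2 _ h4 ?_
  intro x hx
  rw [Core.bit_setBit, Core.bit_setBit, Core.bit_setBit] at hx
  rcases hx with ((hx | rfl) | rfl) | rfl
  · exfalso
    have : Core.bit 0 x = false := by
      rw [Core.bit_eq_testBit]
      simp
    rw [this] at hx
    exact Bool.false_ne_true hx
  · exact ⟨by norm_num, h0⟩
  · exact ⟨by norm_num, h1⟩
  · rw [← h3]
    exact ⟨y0.2, hy0⟩

/-! ### The element of order 8 -/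

theorem sig_rep (hm : g_mask = 2 ^ g_w - 1) (hid' : ∀ i < g_n, Core.app g_w g_mask g_idc i = i) : RepP sic sg⁻¹ :=
  Core.Rep.inv hm hid' sg_rep s_facts.2.2.2.2

theorem sg_order : orderOf sg = 8 := by
  have hm := hid.1
  have hi := hid.2
  have h8 : sg ^ 2 ^ (2 + 1) = 1 := (Walk.rep_powc hm hi sg_rep 8).eq_one hi s_facts.2.1
  have h4 : ¬ sg ^ 2 ^ 2 = 1 := by
    intro h
    obtain ⟨i, hi', h1⟩ := List.any_eq_true.1 s_facts.2.2.1
    have hi'' : i < 126 := List.mem_range.1 hi'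
    have h2 := (Walk.rep_powc hm hi sg_rep 4) ⟨i, hi''⟩
    have h3 : sg ^ 4 = 1 := h
    rw [h3] at h2
    have h5 : ap (Walk.powc g_n g_w g_mask g_idc sc 4) i = i := h2
    rw [h5] at h1
    simp at h1
  have : Fact (Nat.Prime 2) := ⟨Nat.prime_two⟩
  exact orderOf_eq_prime_pow h4 h8

theorem sTest_unpack {a : ℕ} (h : sTest a = true) :
    Walk.powc g_n g_w g_mask g_idc (Core.app g_L g_maskL p_lev0.U a) 5 = g_idc ∧
    ∀ k < 5, ap sc (ap (Core.app g_L g_maskL p_lev0.U a) (ap sic 1)) ≠ apN (Core.app g_L g_maskL p_lev0.U a) k 1 := by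
  unfold sTest at h
  rw [Core.force_eq, Bool.and_eq_true] at h
  refine ⟨Nat.eq_of_beq_eq_true h.1, fun k hk hc => ?_⟩
  have h2 := List.all_eq_true.1 h.2 k (by simp; omega)
  rw [hc] at h2
  have : Nat.beq (apN (Core.app g_L g_maskL p_lev0.U a) k 1) (apN (Core.app g_L g_maskL p_lev0.U a) k 1) = true :=
    Nat.beq_refl _
  rw [this] at h2
  exact Bool.false_ne_true h2

theorem s_main (y : ↥Hp) (hy : y ∈ P5) (hn : y ∉ zpowers zP) (k : ℕ) : sP * y * sP⁻¹ ≠ y ^ k := by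
  have hyq : y.1 ∈ Hq := mem_subgroupOf.1 hy
  have hm := hid.1
  have hi := hid.2
  have hlev := p_lev
  have hy2 : y.1 ∈ Core.H g_w g_mask e0 p_lev0.gens := Hq_eq ▸ hyq
  obtain ⟨b', u, hbe, hub, htab, hlt, hnd, hbit, hnest, hKb, hfact⟩ := hlev
  have hbb : b' = pt1 := by
    apply Fin.ext
    exact hbe.trans lev0_base.2
  subst hbb
  obtain ⟨a, ha, q, hq, hyq'⟩ := hfact y.1 hy2
  have hq1 : q = 1 := by
    have : Core.H g_w g_mask e0 (Core.topGens ([] : List Core.Lev)) = ⊥ := Core.H_nil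
    rw [this] at hq
    exact mem_bot.1 hq
  rw [hq1, mul_one] at hyq'
  obtain ⟨-, hub', hrep, -⟩ := htab a ha
  rw [← hyq'] at hrep hub'
  -- `a` is not the base point of `Hyp`
  have ha0 : a ≠ pt0 := by
    rintro rfl
    have h1 := Hq_fix hyq
    have := y.1.injective (hub'.trans h1.symm)
    exact absurd this (by decide)
  have hane0 : Nat.beq a.1 0 = false := by
    cases hh : Nat.beq a.1 0 with
    | false => rfl
    | true =>
      exfalso
      apply ha0
      exact Fin.ext (Nat.eq_of_beq_eq_true hh)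
  have hz0 : zorb.any (Nat.beq a.1) = false := by
    cases hh : zorb.any (Nat.beq a.1) with
    | false => rfl
    | true =>
      exfalso
      obtain ⟨x, hx, hxe⟩ := List.any_eq_true.1 hh
      obtain ⟨i, -, rfl⟩ := List.mem_map.1 hx
      have h3 := Nat.eq_of_beq_eq_true hxe
      have h4 : a = (zg ^ i) pt1 := by
        apply Fin.ext
        rw [h3]
        exact apN_rep zg_rep i pt1
      -- then `y` is a power of `z`
      have h5 : (zg ^ i)⁻¹ * y.1 ∈ Core.H g_w g_mask e0 p_lev0.gens := by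
        rw [← Hq_eq]
        exact mul_mem (inv_mem (pow_mem zg_mem_Hq i)) hyq
      have h6 : ((zg ^ i)⁻¹ * y.1) pt1 = pt1 := by
        rw [Equiv.Perm.mul_apply, hub', h4]
        simp
      have h7 := Chain.stab_le p_lev hb1 h5 h6
      have h8 : (zg ^ i)⁻¹ * y.1 = 1 := by
        have : Core.H g_w g_mask e0 (Core.topGens ([] : List Core.Lev)) = ⊥ := Core.H_nil
        rw [this] at h7
        exact mem_bot.1 h7
      have h9 : y.1 = zg ^ i := by
        rw [inv_mul_eq_one] at h8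
        exact h8.symm
      apply hn
      have h10 : y = zP ^ i := Subtype.ext h9
      rw [h10]
      exact pow_mem (mem_zpowers zP) i
  have hs := allUpTo_iff.mp s_check a.1 a.2
  rw [hane0, hz0] at hs
  simp only [Bool.false_or] at hs
  obtain ⟨h5c, hne⟩ := sTest_unpack hs
  have hrep' : RepP (Core.app g_L g_maskL p_lev0.U a.1) y.1 := hrep
  have hy5 : y.1 ^ 5 = 1 := (Walk.rep_powc hm hi hrep' 5).eq_one hi h5c
  intro hcon
  have hcon' : sg * y.1 * sg⁻¹ = y.1 ^ k := congrArg (fun t : ↥Hp => t.1) hcon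
  have h7 : y.1 ^ k = y.1 ^ (k % 5) := pow_eq_pow_mod k hy5
  apply hne (k % 5) (Nat.mod_lt _ (by norm_num))
  have h8 := apN_rep hrep' (k % 5) pt1
  have h9 : (sg * y.1 * sg⁻¹) pt1 = (y.1 ^ (k % 5)) pt1 := by
    rw [hcon', h7]
  have h10 : ap sic 1 = (sg⁻¹ pt1).1 := rep_apply (sig_rep hm hi) pt1
  rw [show (pt1 : Fin g_n).1 = 1 from rfl] at h8
  rw [h8, h10, rep_apply hrep', rep_apply sg_rep, ← h9]
  rfl

/-! ### The hypotheses -/

theorem main_hyp (hs : IsSimpleGroup ↥Hp) (hle : Nat.card Hp ≤ Core.orderC g_levels) :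
    Abs.Hyp zP sP P5 pt0 pt1 ztP := by
  obtain ⟨hm, hi, -, hsem, hH, hc⟩ := main_H hle
  have h0 : Core.LevelSem g_w g_mask e0 g_L g_maskL g_lev0 [g_lev1, g_lev2, g_lev3] := hsem.1
  have hH0 : Hp = Core.H g_w g_mask e0 g_lev0.gens := hH
  have hzt0 : ztP pt0 = zg := rfl
  refine
    { simple := hs
      card := by rw [hc, order_ok]
      cardα := by
        rw [Nat.card_eq_fintype_card, Fintype.card_fin]
        rfl
      trans := ?_
      z1 := ?_
      z5 := ?_
      nz := ?_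
      rel := ?_
      card5 := card_P5
      fix5 := ?_
      zmem := mem_subgroupOf.2 zg_mem_Hq
      zcen := ?_
      noncomm := ?_
      x0ne := by decide
      reach := reach_main
      closure := ?_
      sfix := ?_
      sord := ?_
      scheck := s_main }
  · intro a
    obtain ⟨b', u, hbe, hub, htab, hlt, hnd, hbit, hnest, hKb, hfact⟩ := id h0
    have h1 : Core.bit g_lev0.orb a.1 = true := allUpTo_iff.mp lev0_orb a.1 a.2
    have hpts : a.1 ∈ Core.ptsOf g_lev0 := (hbit a.1).1 h1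
    have hb0 : ((e0 pt0 : Fin g_n) : ℕ) = g_lev0.base := lev0_base.1.symm
    obtain ⟨g, hg, hga⟩ := (Chain.orbit_iff h0 hb0 a).1 hpts
    rw [← hH0] at hg
    exact ⟨⟨g, hg⟩, hga⟩
  · intro h
    have h1 : zg = 1 := congrArg (fun t : ↥Hp => t.1) h
    exact zg_fix_not (fun a => by rw [h1]; rfl)
  · apply Subtype.ext
    exact ztP_five pt0
  · intro n hn
    obtain ⟨m, k, h1, h2⟩ := good_all n.2 pt0
    have hn' : n.1 pt0 = pt0 := hn
    rw [hn'] at h1
    refine ⟨m, Subtype.ext ?_⟩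
    exact h1
  · intro g
    obtain ⟨m, k, h1, h2⟩ := good_all g.2 pt0
    refine ⟨k, fun w => ?_⟩
    show ztP (g.1 pt0) w = ((g.1 * zg * g.1⁻¹) ^ k) w
    have h2' : ztP (g.1 pt0) = (g.1 * zg * g.1⁻¹) ^ k := h2
    rw [h2']
  · intro p hp
    exact Hq_fix (mem_subgroupOf.1 hp)
  · intro p hp
    exact Subtype.ext (Hq_comm (mem_subgroupOf.1 hp))
  · obtain ⟨g1, hg1⟩ := rep_T q1c g_mem.2.1
    obtain ⟨g2, hg2⟩ := rep_T q2c g_mem.2.2.1
    have hq1 : g1 ∈ Hq := Core.H_of_rep (by rw [p_T_eq]; simp) hg1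
    have hq2 : g2 ∈ Hq := Core.H_of_rep (by rw [p_T_eq]; simp) hg2
    refine ⟨⟨g1, Hq_le hq1⟩, mem_subgroupOf.2 hq1, ⟨g2, Hq_le hq2⟩, mem_subgroupOf.2 hq2, fun h => ?_⟩
    have h1 : g1 * g2 = g2 * g1 := congrArg (fun t : ↥Hp => t.1) h
    apply q_noncomm
    have h2 := rep_apply hg1 (g2 pt1)
    have h3 := rep_apply hg2 (g1 pt1)
    have h4 := rep_apply hg1 pt1
    have h5 := rep_apply hg2 pt1
    show ap q1c (ap q2c pt1.1) = ap q2c (ap q1c pt1.1)
    rw [h4, h5, h2, h3]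
    have h6 : g1 (g2 pt1) = g2 (g1 pt1) := by
      have := congrArg (fun t : Equiv.Perm (Fin g_n) => t pt1) h1
      simpa using this
    rw [h6]
  · intro O h0 h1 y0 hy0 hne hz hO
    exact closure_main O h0 h1 y0 hy0 hne hz hO
  · show sg pt0 = pt0
    apply Fin.ext
    rw [← rep_apply sg_rep pt0]
    exact s_facts.1
  · rw [← Subgroup.orderOf_coe]
    exact sg_order

end Cfsg.Agent.Lib.U35.Concrete
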