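import Cfsg.Agent.Lib.U35.Concrete

/-! # The smallest index of a proper subgroup of `PSU₃(5)` -/

set_option autoImplicit false
set_option maxRecDepth 100000
set_option linter.unusedSectionVars false
set_option linter.unusedVariables false
set_option linter.style.longLine false

namespace Cfsg.Agent.Lib.U35.Main

open Subgroup
open Cfsg Cfsg.Agent.Lib.U35.Data Cfsg.Agent.Lib.U35.Checks
open Cfsg.Agent.Lib.U35.Bridge Cfsg.Agent.Lib.U35.Concrete
open _root_.Cfsg.Agent.Lib.PermComp

/-- The alternating group inside the permutation group. -/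
abbrev Ha : Subgroup (Equiv.Perm (Fin g_n)) := Core.H g_w g_mask e0 a_T

theorem Ha_le : Ha ≤ Hp := Core.H_mono a_sub

theorem card_Ha : Nat.card Ha = 2520 := by
  have h : g_mask = 2 ^ g_w - 1 ∧ (∀ i < g_n, Core.app g_w g_mask g_idc i = i) ∧ g_idc < 2 ^ (g_n * g_w) ∧
      Core.Sem g_w g_mask e0 g_L g_maskL a_levels ∧ Ha = Core.H g_w g_mask e0 (Core.topGens a_levels) ∧
      Nat.card Ha = Core.orderC a_levels :=
    Core.main_of_checkAll (fun c hc => rep_T c (a_sub c hc)) a_ok
  rw [h.2.2.2.2.2, a_order]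

theorem main {F : Type*} [Field F] [Fintype F] (hF : Fintype.card F = 25) :
    (∀ H : Subgroup (PSU 3 F 5), H ≠ ⊤ → 50 ≤ H.index) ∧ (∃ H : Subgroup (PSU 3 F 5), H.index = 50) := by
  have hK2 : Fintype.card F = 5 ^ 2 := by rw [hF]; norm_num
  obtain ⟨⟨e⟩, hle⟩ := exists_equiv hF
  have hcard : Nat.card (PSU 3 F 5) = 126000 := card_PSU35 hK2
  have : Finite (PSU 3 F 5) := Nat.finite_of_card_ne_zero (by rw [hcard]; norm_num)
  have hs0 : IsSimpleGroup (PSU 3 F 5) :=
    Cfsg.Agent.Lib.Classical.HermBridge.isSimpleGroup_PSU hK2 3 (by norm_num) (by norm_num)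
  have hs : IsSimpleGroup ↥Hp := e.symm.isSimpleGroup
  have hyp := main_hyp hs hle
  refine ⟨fun H hH => ?_, ?_⟩
  · by_contra hlt
    push Not at hlt
    have h1 := Subgroup.card_mul_index H
    rw [hcard] at h1
    have hbig : 2520 < Nat.card (H.map e.toMonoidHom) := by
      have h0 : Nat.card (H.map e.toMonoidHom) = Nat.card H := (Nat.card_congr (e.subgroupMap H).toEquiv).symm
      rw [h0]
      generalize Nat.card H = c at h1
      generalize H.index = i at h1 hlt
      by_contra hc
      push Not at hc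
      have : c * i ≤ 2520 * 49 := Nat.mul_le_mul hc (by omega)
      omega
    have h2 := hyp.eq_top_of_big _ hbig
    apply hH
    rw [eq_top_iff]
    intro x _
    have h3 : e x ∈ H.map e.toMonoidHom := by
      rw [h2]
      exact mem_top _
    obtain ⟨y, hy, hyx⟩ := h3
    have : y = x := e.injective hyx
    rw [← this]
    exact hy
  · refine ⟨(Ha.subgroupOf Hp).map e.symm.toMonoidHom, ?_⟩
    have h1 := Subgroup.card_mul_index ((Ha.subgroupOf Hp).map e.symm.toMonoidHom)
    have h2 : Nat.card ((Ha.subgroupOf Hp).map e.symm.toMonoidHom) = 2520 := by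
      rw [← card_Ha, ← Nat.card_congr (subgroupOfEquivOfLe Ha_le).toEquiv]
      exact (Nat.card_congr (e.symm.subgroupMap (Ha.subgroupOf Hp)).toEquiv).symm
    rw [h2, hcard] at h1
    omega

end Cfsg.Agent.Lib.U35.Main
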